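import Cfsg.Agent.Lib.JK.Loc

/-! Working in `C(a)/O(C(a))` with elements of `G`. -/

set_option autoImplicit false

namespace Cfsg.Lib.JK
open Subgroup

variable {G : Type*} [Group G]

abbrev C (a : G) : Subgroup G := centralizer ({a} : Set G)

abbrev O (a : G) : Subgroup G := (pPrimeCore 2 (C a)).map (C a).subtype

abbrev Qt (a : G) := C a ⧸ pPrimeCore 2 (C a)

theorem mem_C {a x : G} : x ∈ C a ↔ x * a = a * x := mem_centralizer_singleton_iff

theorem C_symm {a x : G} (h : x ∈ C a) : a ∈ C x := mem_C.2 (mem_C.1 h).symm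

theorem C_self (a : G) : a ∈ C a := mem_C.2 rfl

theorem C_cj {a x : G} (g : G) (h : x ∈ C a) : g * x * g⁻¹ ∈ C (g * a * g⁻¹) := by
  rw [mem_C, show g * x * g⁻¹ * (g * a * g⁻¹) = g * (x * a) * g⁻¹ by group, mem_C.1 h]; group

theorem C_mul {a b x : G} (h : x ∈ C a) (h' : x ∈ C b) : x ∈ C (a * b) :=
  C_symm (mul_mem (C_symm h) (C_symm h'))

open Classical in
noncomputable def q (a x : G) : Qt a := if h : x ∈ C a then QuotientGroup.mk ⟨x, h⟩ else 1

theorem q_def {a x : G} (h : x ∈ C a) : q a x = QuotientGroup.mk' _ (⟨x, h⟩ : C a) := dif_pos h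

theorem q_one (a : G) : q a 1 = 1 := by rw [q_def (one_mem _)]; rfl

theorem q_mul {a x y : G} (hx : x ∈ C a) (hy : y ∈ C a) : q a (x * y) = q a x * q a y := by
  rw [q_def hx, q_def hy, q_def (mul_mem hx hy)]; rfl

theorem q_inv {a x : G} (hx : x ∈ C a) : q a x⁻¹ = (q a x)⁻¹ := by
  rw [q_def hx, q_def (inv_mem hx)]; rfl

theorem q_pow {a x : G} (hx : x ∈ C a) (n : ℕ) : q a (x ^ n) = q a x ^ n := by
  rw [q_def hx, q_def (pow_mem hx n)]; rfl

theorem q_zpow {a x : G} (hx : x ∈ C a) (n : ℤ) : q a (x ^ n) = q a x ^ n := by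
  rw [q_def hx, q_def (zpow_mem hx n)]; rfl

theorem q_eq_one {a x : G} (hx : x ∈ C a) : q a x = 1 ↔ x ∈ O a := by
  rw [q_def hx, QuotientGroup.mk'_apply, QuotientGroup.eq_one_iff]
  exact ⟨fun h => ⟨_, h, rfl⟩, fun ⟨y, h, e⟩ => by obtain rfl : y = ⟨x, hx⟩ := Subtype.ext e; exact h⟩

theorem q_surj {a : G} (ξ : Qt a) : ∃ x ∈ C a, q a x = ξ := by
  obtain ⟨x, rfl⟩ := QuotientGroup.mk_surjective ξ
  exact ⟨x, x.2, q_def x.2⟩

theorem q_cen {a : G} (ξ : Qt a) : ξ * q a a = q a a * ξ := by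
  obtain ⟨x, hx, rfl⟩ := q_surj ξ
  rw [← q_mul hx (C_self a), mem_C.1 hx, q_mul (C_self a) hx]

theorem q_comm {a x y : G} (hx : x ∈ C a) (hy : y ∈ C a) (h : x * y = y * x) :
    q a x * q a y = q a y * q a x := by rw [← q_mul hx hy, h, q_mul hy hx]

theorem q_sq {a x y : G} (hx : x ∈ C a) (h : x * x = y) : q a x * q a x = q a y := by
  rw [← q_mul hx hx, h]

theorem q_sq1 {a x : G} (hx : x ∈ C a) (h : x * x = 1) : q a x * q a x = 1 := by
  rw [q_sq hx h, q_one]

theorem q_p2 {a x : G} (hx : x ∈ C a) (h : P2 x) : P2 (q a x) :=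
  h.imp fun k e => by rw [← q_pow hx, e, q_one]

theorem q_odd {a x : G} (hx : x ∈ C a) (h : Odd (orderOf x)) : Odd (orderOf (q a x)) :=
  h.of_dvd_nat (orderOf_dvd_of_pow_eq_one (by rw [← q_pow hx, pow_orderOf_eq_one, q_one]))

noncomputable def bar (a : G) (J : Subgroup G) : Subgroup (Qt a) :=
  (J.subgroupOf (C a)).map (QuotientGroup.mk' _)

theorem q_mem {a x : G} {J : Subgroup G} (hx : x ∈ C a) (h : x ∈ J) : q a x ∈ bar a J :=
  ⟨⟨x, hx⟩, h, (q_def hx).symm⟩

theorem mem_bar {a : G} {J : Subgroup G} {ξ : Qt a} (h : ξ ∈ bar a J) :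
    ∃ x ∈ J, x ∈ C a ∧ q a x = ξ := by
  obtain ⟨x, hx, rfl⟩ := h
  exact ⟨x, hx, x.2, q_def x.2⟩

theorem bar_cj {a g : G} (hg : g ∈ C a) (J : Subgroup G) :
    bar a (cj g J) = cj (q a g) (bar a J) := by
  refine le_antisymm (fun ξ h => ?_) ?_
  · obtain ⟨x, hx, hx', rfl⟩ := mem_bar h
    rw [mem_map_conj] at hx ⊢
    have := q_mem (a := a) (by (repeat' first | assumption | exact C_self _ | apply mul_mem | apply inv_mem | apply pow_mem)) hx
    simp (disch := (repeat' first | assumption | exact C_self _ | apply mul_mem | apply inv_mem | apply pow_mem)) only [q_mul, q_inv, q_pow] at this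
    exact this
  · rintro _ ⟨ξ, h, rfl⟩
    obtain ⟨x, hx, hx', rfl⟩ := mem_bar h
    have := q_mem (a := a) (by (repeat' first | assumption | exact C_self _ | apply mul_mem | apply inv_mem | apply pow_mem)) (cj_mem hx g)
    simp (disch := (repeat' first | assumption | exact C_self _ | apply mul_mem | apply inv_mem | apply pow_mem)) only [q_mul, q_inv, q_pow] at this
    exact this

theorem O_cj (g a : G) : O (g * a * g⁻¹) = cj g (O a) := by
  have : C (g * a * g⁻¹) = cj g (C a) := by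
    ext x
    rw [mem_map_conj]
    exact ⟨fun h => by simpa [mul_assoc] using C_cj g⁻¹ h, fun h => by
      simpa [mul_assoc] using C_cj g h⟩
  rw [O, this]
  exact pPrimeCoreOf_map_of_injective _ (MulAut.conj g).injective _

theorem q_eq {a x y : G} (hx : x ∈ C a) (hy : y ∈ C a) : q a x = q a y ↔ x⁻¹ * y ∈ O a := by
  rw [← q_eq_one (by (repeat' first | assumption | exact C_self _ | apply mul_mem | apply inv_mem | apply pow_mem))]; simp (disch := (repeat' first | assumption | exact C_self _ | apply mul_mem | apply inv_mem | apply pow_mem)) only [q_mul, q_inv, q_pow]; rw [inv_mul_eq_one]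

theorem q_cj {a x y : G} (g : G) (hx : x ∈ C a) (hy : y ∈ C a) (h : q a x = q a y) :
    q (g * a * g⁻¹) (g * x * g⁻¹) = q (g * a * g⁻¹) (g * y * g⁻¹) := by
  rw [q_eq (C_cj g hx) (C_cj g hy), O_cj,
    show (g * x * g⁻¹)⁻¹ * (g * y * g⁻¹) = g * (x⁻¹ * y) * g⁻¹ by group]
  exact cj_mem ((q_eq hx hy).1 h) g

theorem mem_of_mul_odd {N : Subgroup G} {l o : G} (hl : l ∈ N) (ho : o ∈ normalizer (N : Set G))
    (hodd : Odd (orderOf o)) (h2 : P2 (l * o)) : l * o ∈ N := by
  have key : ∀ n : ℕ, (l * o) ^ n * (o ^ n)⁻¹ ∈ N := by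
    intro n
    induction n with
    | zero => simp
    | succ n ih =>
      rw [show (l * o) ^ (n + 1) * (o ^ (n + 1))⁻¹ = l * (o * ((l * o) ^ n * (o ^ n)⁻¹) * o⁻¹) by
        rw [pow_succ', pow_succ']; group]
      exact mul_mem hl (cj_mem_of_norm ho ih)
  have := key (orderOf o)
  rw [pow_orderOf_eq_one, inv_one, mul_one] at this
  exact h2.mem_of_pow hodd this

/-- `J` is a `2`-component of `C(a)` with unique involution `a` -/
structure QC (a : G) (J : Subgroup G) : Prop where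
  mem : a ∈ J
  sq : a * a = 1
  ne : a ≠ 1
  uniq : ∀ t ∈ J, t * t = 1 → t = 1 ∨ t = a
  le : J ≤ C a
  comp : IsPComponent 2 (J.subgroupOf (C a))

/-- membership in the `2`-layer of `C(s)` -/
def InL (s x : G) : Prop := x ∈ (pLayer 2 (C s)).map (C s).subtype

variable [Finite G]

theorem odd_of_O {a x : G} (h : x ∈ O a) : Odd (orderOf x) :=
  Nat.coprime_two_right.1 (coprime_orderOf_of_mem (coprime_card_pPrimeCoreOf _) h)

theorem odd_of_q {a x : G} (hx : x ∈ C a) (h : q a x = 1) : Odd (orderOf x) :=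
  odd_of_O ((q_eq_one hx).1 h)

theorem one_of_q {a x : G} (hx : x ∈ C a) (h2 : P2 x) (h : q a x = 1) : x = 1 :=
  h2.eq_one (odd_of_q hx h)

theorem eq_of_q {a x y : G} (hx : x ∈ C a) (hy : y ∈ C a) (h2 : P2 x) (h3 : P2 y)
    (c : x * y = y * x) (h : q a x = q a y) : x = y := by
  refine inv_mul_eq_one.1 (one_of_q (a := a) (by (repeat' first | assumption | exact C_self _ | apply mul_mem | apply inv_mem | apply pow_mem)) (h2.inv.mul h3 ?_) ?_)
  · exact (Commute.inv_left c).eq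
  · simp (disch := (repeat' first | assumption | exact C_self _ | apply mul_mem | apply inv_mem | apply pow_mem)) only [q_mul, q_inv, q_pow]; rw [h, inv_mul_cancel]

theorem q_ne {a x : G} (hx : x ∈ C a) (h2 : x * x = 1) (h : x ≠ 1) : q a x ≠ 1 := fun e =>
  h (one_of_q hx (.of_sq h2) e)

theorem lift_aux {a e e' : G} (he : e ∈ C a) (he' : e' ∈ C a) (h2 : e * e = 1) (h3 : e' * e' = 1)
    (h : q a e = q a e') : ∃ o ∈ zpowers (e' * e), q a o = 1 ∧ o * e * o⁻¹ = e' := by
  have h1 : q a (e' * e) = 1 := by simp (disch := (repeat' first | assumption | exact C_self _ | apply mul_mem | apply inv_mem | apply pow_mem)) only [q_mul, q_inv, q_pow]; rw [h, q_sq1 he' h3]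
  obtain ⟨j, hj⟩ := exists_conj_of_odd (t := e') (t' := e) (by rw [sq, h3]) (by rw [sq, h2])
    (odd_of_q (by (repeat' first | assumption | exact C_self _ | apply mul_mem | apply inv_mem | apply pow_mem)) h1).not_two_dvd_nat
  exact ⟨_, zpow_mem (mem_zpowers _) j, by rw [q_zpow (by (repeat' first | assumption | exact C_self _ | apply mul_mem | apply inv_mem | apply pow_mem)), h1, one_zpow], hj⟩

theorem lift2 {a e e' f f' : G} {ξ : Qt a} (he : e ∈ C a) (he' : e' ∈ C a) (hf : f ∈ C a)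
    (hf' : f' ∈ C a) (e2 : e * e = 1) (e2' : e' * e' = 1) (f2 : f * f = 1) (f2' : f' * f' = 1)
    (c : f ∈ C e) (c' : f' ∈ C e') (h1 : ξ * q a e * ξ⁻¹ = q a e')
    (h2 : ξ * q a f * ξ⁻¹ = q a f') :
    ∃ x ∈ C a, q a x = ξ ∧ x * e * x⁻¹ = e' ∧ x * f * x⁻¹ = f' := by
  obtain ⟨x, hx, rfl⟩ := q_surj ξ
  have sq : ∀ x e : G, e * e = 1 → x * e * x⁻¹ * (x * e * x⁻¹) = 1 := fun x e h => by
    rw [show x * e * x⁻¹ * (x * e * x⁻¹) = x * (e * e) * x⁻¹ by group, h]; simp
  obtain ⟨o, ho, ho1, ho2⟩ := lift_aux (a := a) (e := x * e * x⁻¹) (by (repeat' first | assumption | exact C_self _ | apply mul_mem | apply inv_mem | apply pow_mem)) he' (sq x e e2) e2'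
    (by simp (disch := (repeat' first | assumption | exact C_self _ | apply mul_mem | apply inv_mem | apply pow_mem)) only [q_mul, q_inv, q_pow]; exact h1)
  have hoa : o ∈ C a := zpowers_le.2 (by (repeat' first | assumption | exact C_self _ | apply mul_mem | apply inv_mem | apply pow_mem)) ho
  have e3 : o * x * e * (o * x)⁻¹ = e' := by rw [← ho2]; group
  obtain ⟨o', ho', ho1', ho2'⟩ := lift_aux (a := a) (e := o * x * f * (o * x)⁻¹) (by (repeat' first | assumption | exact C_self _ | apply mul_mem | apply inv_mem | apply pow_mem)) hf'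
    (sq _ f f2) f2' (by simp (disch := (repeat' first | assumption | exact C_self _ | apply mul_mem | apply inv_mem | apply pow_mem)) only [q_mul, q_inv, q_pow]; rw [ho1, one_mul]; exact h2)
  have hoa' : o' ∈ C a := zpowers_le.2 (by (repeat' first | assumption | exact C_self _ | apply mul_mem | apply inv_mem | apply pow_mem)) ho'
  have hoe : o' ∈ C e' := zpowers_le.2 (mul_mem c' (e3 ▸ C_cj (o * x) c)) ho'
  refine ⟨o' * (o * x), by (repeat' first | assumption | exact C_self _ | apply mul_mem | apply inv_mem | apply pow_mem), by simp (disch := (repeat' first | assumption | exact C_self _ | apply mul_mem | apply inv_mem | apply pow_mem)) only [q_mul, q_inv, q_pow]; rw [ho1, ho1']; simp, ?_, by rw [← ho2']; group⟩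
  rw [show o' * (o * x) * e * (o' * (o * x))⁻¹ = o' * (o * x * e * (o * x)⁻¹) * o'⁻¹ by group, e3,
    mem_C.1 hoe]; simp

theorem lift1 {a e e' : G} {ξ : Qt a} (he : e ∈ C a) (he' : e' ∈ C a) (e2 : e * e = 1)
    (e2' : e' * e' = 1) (h1 : ξ * q a e * ξ⁻¹ = q a e') :
    ∃ x ∈ C a, q a x = ξ ∧ x * e * x⁻¹ = e' :=
  let ⟨x, h, h2, h3, _⟩ := lift2 he he' (one_mem _) (one_mem _) e2 e2' (one_mul 1) (one_mul 1)
    (one_mem _) (one_mem _) h1 (by simp [q_one])
  ⟨x, h, h2, h3⟩

theorem liftc2 {a e f : G} {ξ : Qt a} (he : e ∈ C a) (hf : f ∈ C a) (e2 : e * e = 1)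
    (f2 : f * f = 1) (c : f ∈ C e) (hξ : P2 ξ) (h1 : ξ * q a e = q a e * ξ)
    (h2 : ξ * q a f = q a f * ξ) : ∃ x ∈ C a, x ∈ C e ∧ x ∈ C f ∧ P2 x ∧ q a x = ξ := by
  obtain ⟨x, hx, h3, h4, h5⟩ := lift2 he he hf hf e2 e2 f2 f2 c c (cj_comm.2 h1) (cj_comm.2 h2)
  obtain ⟨n, h6, h7⟩ := exists_two_part x hξ
  exact ⟨x ^ n, pow_mem hx n, pow_mem (mem_C.2 (cj_comm.1 h4)) n,
    pow_mem (mem_C.2 (cj_comm.1 h5)) n, h6, by rw [q_pow hx, h3, h7]⟩

theorem liftc {a e : G} {ξ : Qt a} (he : e ∈ C a) (e2 : e * e = 1) (hξ : P2 ξ)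
    (h1 : ξ * q a e = q a e * ξ) : ∃ x ∈ C a, x ∈ C e ∧ P2 x ∧ q a x = ξ :=
  let ⟨x, h, h2, _, h3⟩ := liftc2 he (one_mem _) e2 (one_mul 1) (one_mem _) hξ h1
    (by simp [q_one])
  ⟨x, h, h2, h3⟩

theorem sq_of_q {a x y : G} (hx : x ∈ C a) (hy : y ∈ C a) (h2 : P2 x) (y2 : y * y = 1)
    (c : x ∈ C y) (h : q a x * q a x = q a y) : x * x = y :=
  eq_of_q (by (repeat' first | assumption | exact C_self _ | apply mul_mem | apply inv_mem | apply pow_mem)) hy (h2.mul h2 rfl) (.of_sq y2) (mem_C.1 (mul_mem c c)) (by simp (disch := (repeat' first | assumption | exact C_self _ | apply mul_mem | apply inv_mem | apply pow_mem)) only [q_mul, q_inv, q_pow]; exact h)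

theorem bal {a s x : G} (a2 : a * a = 1) (s2 : s * s = 1) (hs : s ∈ C a) (hx : x ∈ C a)
    (hxs : x ∈ C s) (h2 : P2 x) (h : q a x ∈ (pLayer 2 (centralizer ({q a s} : Set (Qt a)))).map
      (centralizer ({q a s} : Set (Qt a))).subtype) : InL s x := by
  have hk : (Nat.card (QuotientGroup.mk' (pPrimeCore 2 (C a))).ker).Coprime 2 := by
    rw [QuotientGroup.ker_mk']; exact coprime_card_pPrimeCore
  have e1 : (C a ⊓ C s).subgroupOf (C a) = centralizer ({(⟨s, hs⟩ : C a)} : Set (C a)) := by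
    ext y; simp [mem_subgroupOf, mem_centralizer_singleton_iff, Subtype.ext_iff]
  have e2 : (C a ⊓ C s).subgroupOf (C s) =
      centralizer (zpowers (⟨a, C_symm hs⟩ : C s) : Set (C s)) := by
    rw [centralizer_zpowers]
    ext y; simp [mem_subgroupOf, mem_centralizer_singleton_iff, Subtype.ext_iff]
  rw [q_def hs, centralizer_singleton_map_of_ker_coprime _ (QuotientGroup.mk'_surjective _) hk
    (P2.of_sq (Subtype.ext s2)).isPGroup, ← map_pLayerOf_of_ker_coprime _ _
      (Nat.Coprime.coprime_dvd_left (card_dvd_of_le inf_le_right) hk), ← e1] at h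
  obtain ⟨l, hl, e⟩ := h
  have hl' : (l : G) ∈ (pLayer 2 ↥(C a ⊓ C s)).map (C a ⊓ C s).subtype := by
    rw [← pLayerOf_subgroupOf (inf_le_left : C a ⊓ C s ≤ C a)]; exact ⟨l, hl, rfl⟩
  have hls : (l : G) ∈ C a ⊓ C s := map_subtype_le _ hl'
  have h3 : x ∈ (pLayer 2 ↥(C a ⊓ C s)).map (C a ⊓ C s).subtype := by
    have := mem_of_mul_odd (o := (l : G)⁻¹ * x) hl' (le_normalizer_pLayerOf _
      (mul_mem (inv_mem hls) ⟨hx, hxs⟩)) (odd_of_O ((q_eq l.2 hx).1 ((q_def l.2).trans e)))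
      (by simpa using h2)
    simpa using this
  rw [← pLayerOf_subgroupOf (inf_le_right : C a ⊓ C s ≤ C s), e2] at h3
  exact map_mono (pLayerOf_centralizer_le_pLayer (P2.of_sq (Subtype.ext a2)).isPGroup) h3

theorem InL.layer {s x : G} (h : InL s x) : q s x ∈ layer (Qt s) := by
  obtain ⟨y, hy, rfl⟩ := h
  rw [← map_pLayer_mk']
  exact ⟨y, hy, (q_def y.2).symm⟩

namespace QC
variable {a : G} {J J' : Subgroup G}

theorem quasi (h : QC a J) : IsPQuasi 2 J := isPQuasi_of_isPComponent_subgroupOf h.le h.comp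

theorem cu (h : QC a J) : CU (bar a J) (q a a) := by
  refine ⟨h.comp.isComponent_map, q_mem (C_self a) h.mem, q_sq1 (C_self a) h.sq,
    q_ne (C_self a) h.sq h.ne, fun t ht h2 => ?_, q_cen, pPrimeCore_quotient_pPrimeCore⟩
  obtain ⟨x, hx, hx', rfl⟩ := mem_bar ht
  obtain ⟨n, h3, h4⟩ := exists_two_part x (P2.of_sq h2)
  rw [← q_pow hx'] at h4
  rcases h.uniq _ (pow_mem hx n) (one_of_q (a := a) (by (repeat' first | assumption | exact C_self _ | apply mul_mem | apply inv_mem | apply pow_mem)) (h3.mul h3 rfl)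
    (by rw [q_mul (by (repeat' first | assumption | exact C_self _ | apply mul_mem | apply inv_mem | apply pow_mem)) (by (repeat' first | assumption | exact C_self _ | apply mul_mem | apply inv_mem | apply pow_mem)), h4, h2])) with e | e <;> rw [← h4, e]
  · exact Or.inl (q_one a)
  · exact Or.inr rfl

theorem bar_inj (h : QC a J) (h' : QC a J') (e : bar a J = bar a J') : J = J' := by
  have := congrArg (map (C a).subtype) (h.comp.eq_of_map_eq h'.comp e)
  rwa [subgroupOf_map_subtype, subgroupOf_map_subtype, inf_eq_left.2 h.le,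
    inf_eq_left.2 h'.le] at this

theorem bar_ne (h : QC a J) (h' : QC a J') (e : J ≠ J') : bar a J ≠ bar a J' :=
  fun e' => e (h.bar_inj h' e')

theorem conj (h : QC a J) (g : G) : QC (g * a * g⁻¹) (cj g J) := by
  have e : C (g * a * g⁻¹) = cj g (C a) := by
    ext x
    rw [mem_map_conj]
    exact ⟨fun h => by simpa [mul_assoc] using C_cj g⁻¹ h, fun h => by
      simpa [mul_assoc] using C_cj g h⟩
  refine ⟨cj_mem h.mem g, ?_, fun e => h.ne (by simpa using e), ?_, e ▸ map_mono h.le, ?_⟩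
  · rw [show g * a * g⁻¹ * (g * a * g⁻¹) = g * (a * a) * g⁻¹ by group, h.sq]; simp
  · rintro _ ⟨t, ht, rfl⟩ h2
    change g * t * g⁻¹ * (g * t * g⁻¹) = 1 at h2
    change g * t * g⁻¹ = 1 ∨ g * t * g⁻¹ = _
    rw [show g * t * g⁻¹ * (g * t * g⁻¹) = g * (t * t) * g⁻¹ by group] at h2
    rcases h.uniq t ht (by simpa using h2) with rfl | rfl <;> simp
  · rw [e]
    exact isPComponent_map_subgroupOf_map _ h.le h.comp fun e => h.quasi.ne_bot
      ((map_eq_bot_iff_of_injective _ (MulAut.conj g).injective).1 e)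

theorem conj' (h : QC a J) {g : G} (hg : g ∈ C a) : QC a (cj g J) := by
  have := h.conj g
  rwa [cj_comm.2 (mem_C.1 hg)] at this

theorem norm_iff (h : QC a J) {g : G} (hg : g ∈ C a) :
    q a g ∈ normalizer (bar a J : Set (Qt a)) ↔ g ∈ normalizer (J : Set G) := by
  rw [← cj_eq_iff, ← cj_eq_iff, ← bar_cj hg]
  exact ⟨(h.conj' hg).bar_inj h, fun e => by rw [e]⟩

theorem mem_of_p2 (h : QC a J) {x : G} (hx : x ∈ C a) (h2 : P2 x) (hq : q a x ∈ bar a J) :
    x ∈ J := by
  obtain ⟨l, hl, hl', e⟩ := mem_bar hq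
  have := mem_of_mul_odd (o := l⁻¹ * x) hl ((h.norm_iff (by (repeat' first | assumption | exact C_self _ | apply mul_mem | apply inv_mem | apply pow_mem))).1
    (by simp (disch := (repeat' first | assumption | exact C_self _ | apply mul_mem | apply inv_mem | apply pow_mem)) only [q_mul, q_inv, q_pow]; rw [e, inv_mul_cancel]; exact one_mem _)) (odd_of_O ((q_eq hl' hx).1 e))
    (by simpa using h2)
  simpa using this

theorem norm_of_inL (h : QC a J) {x : G} (hx : InL a x) : x ∈ normalizer (J : Set G) :=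
  (h.norm_iff (map_subtype_le _ hx)).1 (h.cu.comp.layer_le_normalizer hx.layer)

theorem le_norm (h : QC a J) (h' : QC a J') : J' ≤ normalizer (J : Set G) := fun _ hx =>
  (h.norm_iff (h'.le hx)).1 (h'.cu.comp.le_normalizer h.cu.comp (q_mem (h'.le hx) hx))

omit [Finite G] in
theorem exists_pow (h : QC a J) {x : G} (hx : x ∈ J) (h2 : P2 x) (h1 : x ≠ 1) :
    ∃ n : ℕ, x ^ n = a := by
  obtain ⟨n, h3, h4⟩ := h2.exists_inv h1
  exact ⟨n, (h.uniq _ (pow_mem hx n) h4).resolve_left h3⟩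

theorem odd_or (h : QC a J) {x : G} (hx : x ∈ J) : Odd (orderOf x) ∨ ∃ n : ℕ, x ^ n = a := by
  obtain ⟨m, hm, h2⟩ := exists_odd_pow x
  by_cases e : x ^ m = 1
  · exact Or.inl (hm.of_dvd_nat (orderOf_dvd_of_pow_eq_one e))
  · obtain ⟨n, hn⟩ := h.exists_pow (pow_mem hx m) h2 e
    exact Or.inr ⟨m * n, by rw [pow_mul, hn]⟩

theorem cent_cj (h : QC a J) {b : G} (hb : b ∈ C a) (g : G)
    (hc : q a b ∈ centralizer (bar a J : Set (Qt a))) :
    q (g * a * g⁻¹) (g * b * g⁻¹) ∈ centralizer (bar (g * a * g⁻¹) (cj g J) : Set _) := by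
  refine mem_cent.2 fun ξ hξ => ?_
  obtain ⟨_, ⟨x, hx, rfl⟩, hx', rfl⟩ := mem_bar hξ
  have hxa := h.le hx
  have := q_cj (a := a) g (x := x * b) (y := b * x) (by (repeat' first | assumption | exact C_self _ | apply mul_mem | apply inv_mem | apply pow_mem)) (by (repeat' first | assumption | exact C_self _ | apply mul_mem | apply inv_mem | apply pow_mem))
    (by simp (disch := (repeat' first | assumption | exact C_self _ | apply mul_mem | apply inv_mem | apply pow_mem)) only [q_mul, q_inv, q_pow]; exact mem_cent.1 hc _ (q_mem hxa hx))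
  rwa [show g * (x * b) * g⁻¹ = g * x * g⁻¹ * (g * b * g⁻¹) by group,
    show g * (b * x) * g⁻¹ = g * b * g⁻¹ * (g * x * g⁻¹) by group,
    q_mul (C_cj g hxa) (C_cj g hb), q_mul (C_cj g hb) (C_cj g hxa)] at this

theorem not_cent_cj (h : QC a J) {b a' b' g : G} (hb : b ∈ C a) (ha' : g * a * g⁻¹ = a')
    (hb' : g * b * g⁻¹ = b') (hc : q a b ∉ centralizer (bar a J : Set (Qt a))) :
    q a' b' ∉ centralizer (bar a' (cj g J) : Set _) := fun hc' => by
  subst ha' hb'
  have := (h.conj g).cent_cj (C_cj g hb) g⁻¹ hc'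
  have e1 : g⁻¹ * (g * a * g⁻¹) * g⁻¹⁻¹ = a := by group
  have e2 : g⁻¹ * (g * b * g⁻¹) * g⁻¹⁻¹ = b := by group
  rw [e2, ← cj_mul, inv_mul_cancel, cj_one] at this
  revert this
  rw [e1]
  exact hc

end QC

end Cfsg.Lib.JK
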