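import Cfsg.Agent.Lib.JK.Quat

/-! Components with a unique involution in a core-free group. -/

set_option autoImplicit false

namespace Cfsg.Lib.JK
open Subgroup

variable {Q : Type*} [Group Q]

/-- conjugate subgroup `g I g⁻¹` -/
abbrev cj (g : Q) (I : Subgroup Q) : Subgroup Q := I.map (MulAut.conj g).toMonoidHom

theorem cj_mem {I : Subgroup Q} {x : Q} (hx : x ∈ I) (g : Q) : g * x * g⁻¹ ∈ cj g I := ⟨x, hx, rfl⟩

theorem cj_eq_iff {I : Subgroup Q} {g : Q} : cj g I = I ↔ g ∈ normalizer (I : Set Q) :=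
  mem_normalizer_iff_map_conj_eq.symm

theorem cj_mul (I : Subgroup Q) (g h : Q) : cj (g * h) I = cj g (cj h I) := map_conj_mul I g h

theorem cj_one (I : Subgroup Q) : cj 1 I = I := cj_eq_iff.2 (one_mem _)

theorem cj_inj {I I' : Subgroup Q} {g : Q} (h : cj g I = cj g I') : I = I' :=
  map_injective (MulAut.conj g).injective h

theorem cj_norm {I : Subgroup Q} {x : Q} (g : Q) :
    g * x * g⁻¹ ∈ normalizer (cj g I : Set Q) ↔ x ∈ normalizer (I : Set Q) := by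
  rw [← cj_eq_iff, ← cj_eq_iff, ← cj_mul, show g * x * g⁻¹ * g = g * x by group, cj_mul]
  exact ⟨cj_inj, fun h => by rw [h]⟩

theorem mem_cent {I : Subgroup Q} {r : Q} :
    r ∈ centralizer (I : Set Q) ↔ ∀ x ∈ I, x * r = r * x := mem_centralizer_iff

theorem cj_cent {I : Subgroup Q} {x : Q} (g : Q) :
    g * x * g⁻¹ ∈ centralizer (cj g I : Set Q) ↔ x ∈ centralizer (I : Set Q) := by
  simp only [mem_cent]
  refine ⟨fun h y hy => ?_, ?_⟩
  · have := h _ (cj_mem hy g)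
    rw [show g * y * g⁻¹ * (g * x * g⁻¹) = g * (y * x) * g⁻¹ by group,
      show g * x * g⁻¹ * (g * y * g⁻¹) = g * (x * y) * g⁻¹ by group] at this
    simpa using this
  · rintro h _ ⟨y, hy, rfl⟩
    change g * y * g⁻¹ * _ = _ * (g * y * g⁻¹)
    rw [show g * y * g⁻¹ * (g * x * g⁻¹) = g * (y * x) * g⁻¹ by group, h y hy]; group

theorem cj_mem_of_norm {I : Subgroup Q} {g x : Q} (hg : g ∈ normalizer (I : Set Q)) (hx : x ∈ I) :
    g * x * g⁻¹ ∈ I := (mem_normalizer_iff.1 hg x).1 hx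

/-- `I` is a component of the core-free group `Q` with unique involution `z`, central in `Q` -/
structure CU (I : Subgroup Q) (z : Q) : Prop where
  comp : IsComponent I
  mem : z ∈ I
  sq : z * z = 1
  ne : z ≠ 1
  uniq : ∀ t ∈ I, t * t = 1 → t = 1 ∨ t = z
  cen : ∀ g, g * z = z * g
  core : pPrimeCore 2 Q = ⊥

theorem ui_of {I : Subgroup Q} {z : Q} (hz : z ∈ I) (sq : z * z = 1) (ne : z ≠ 1)
    (uniq : ∀ t ∈ I, t * t = 1 → t = 1 ∨ t = z) : UI (⟨z, hz⟩ : I) :=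
  ⟨Subtype.ext sq, fun e => ne (congrArg Subtype.val e), fun t ht =>
    (uniq t t.2 (congrArg Subtype.val ht)).imp Subtype.ext Subtype.ext⟩

theorem res_of [Finite Q] {I : Subgroup Q} (h : ⁅I, I⁆ = I) : pResidual 2 I = ⊤ :=
  pResidual_eq_top_of_commutator_eq_top (isPerfect_iff.2 h).commutator_eq_top

theorem P2.subtype {I : Subgroup Q} {x : Q} (h : P2 x) (hx : x ∈ I) : P2 (⟨x, hx⟩ : I) :=
  h.imp fun _ e => Subtype.ext e

namespace CU
variable {I I' : Subgroup Q} {z z' : Q}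

theorem ui (h : CU I z) : UI (⟨z, h.mem⟩ : I) := ui_of h.mem h.sq h.ne h.uniq

theorem conj (h : CU I z) (g : Q) : CU (cj g I) z := by
  have e : g * z * g⁻¹ = z := cj_comm.2 (h.cen g)
  refine ⟨h.comp.map_conj g, e ▸ cj_mem h.mem g, h.sq, h.ne, ?_, h.cen, h.core⟩
  rintro _ ⟨t, ht, rfl⟩ h2
  change g * t * g⁻¹ * (g * t * g⁻¹) = 1 at h2
  change g * t * g⁻¹ = 1 ∨ g * t * g⁻¹ = z
  rw [show g * t * g⁻¹ * (g * t * g⁻¹) = g * (t * t) * g⁻¹ by group] at h2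
  rcases h.uniq t ht (by simpa using h2) with rfl | rfl
  · simp
  · exact Or.inr e

theorem cj_sq (h : CU I z) {u : Q} (hu : u * u = z) (g : Q) :
    g * u * g⁻¹ * (g * u * g⁻¹) = z := by
  rw [show g * u * g⁻¹ * (g * u * g⁻¹) = g * (u * u) * g⁻¹ by group, hu, h.cen]; simp

theorem inv_eq (h : CU I z) {u : Q} (hu : u * u = z) : u⁻¹ = u * z := by
  rw [inv_eq_iff_mul_eq_one, ← mul_assoc, hu, h.sq]

theorem p2 (h : CU I z) {u : Q} (hu : u * u = z) : P2 u := .of_mul_self (hu ▸ .of_sq h.sq)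

theorem eq_or (h : CU I z) {u v : Q} (hu' : u ∈ I) (hv' : v ∈ I) (hu : u * u = z) (hv : v * v = z)
    (c : u * v = v * u) : v = u ∨ v = u⁻¹ :=
  (h.ui.eq_or (u := ⟨u, hu'⟩) (v := ⟨v, hv'⟩) (Subtype.ext hu) (Subtype.ext hv)
    (Subtype.ext c)).imp (congrArg Subtype.val) (congrArg Subtype.val)

theorem ne_inv (h : CU I z) {u : Q} (hu : u * u = z) : u ≠ u⁻¹ := fun e =>
  h.ne (by rw [← hu]; nth_rewrite 2 [e]; simp)

theorem exists_pow (h : CU I z) {x : Q} (hx : x ∈ I) (h2 : P2 x) (h1 : x ≠ 1) :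
    ∃ n : ℕ, x ^ n = z := by
  obtain ⟨n, h3, h4⟩ := h2.exists_inv h1
  exact ⟨n, (h.uniq _ (pow_mem hx n) h4).resolve_left h3⟩

theorem exists_pow_four (h : CU I z) {x : Q} (hx : x ∈ I) (h2 : P2 x) (h1 : x * x ≠ 1) :
    ∃ n : ℕ, x ^ n * x ^ n = z := by
  obtain ⟨n, hn⟩ := h.exists_pow (mul_mem hx hx) (h2.mul h2 rfl) h1
  exact ⟨n, by rw [← hn, (Commute.refl x).mul_pow]⟩

variable [Finite Q]

theorem res (h : CU I z) : pResidual 2 I = ⊤ := res_of h.comp.commutator_self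

theorem exists_inverting (h : CU I z) {y : Q} (hy : y ∈ I) (h2 : P2 y) :
    ∃ w ∈ I, w * w = z ∧ w * y * w⁻¹ = y⁻¹ :=
  let ⟨w, h1, h3⟩ := h.ui.exists_inverting h.res (h2.subtype hy)
  ⟨w, w.2, congrArg Subtype.val h1, congrArg Subtype.val h3⟩

theorem exists_q8 (h : CU I z) :
    ∃ u ∈ I, ∃ v ∈ I, u * u = z ∧ v * v = z ∧ v * u * v⁻¹ = u⁻¹ :=
  let ⟨u, v, h1, h2, h3⟩ := h.ui.exists_q8 h.res
  ⟨u, u.2, v, v.2, congrArg Subtype.val h1, congrArg Subtype.val h2, congrArg Subtype.val h3⟩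

theorem exists_cycle (h : CU I z) {k x : Q} (hk' : k ∈ I) (hx' : x ∈ I) (hk : k * k = z)
    (hx : x * x = z) (hkx : x * k * x⁻¹ = k⁻¹) :
    ∃ g ∈ I, (g * k * g⁻¹ = x ∨ g * k * g⁻¹ = x * z) ∧
      (g * (k * x) * g⁻¹ = k ∨ g * (k * x) * g⁻¹ = k * z) :=
  let ⟨g, h1, h2⟩ := h.ui.exists_cycle h.res (k := ⟨k, hk'⟩) (x := ⟨x, hx'⟩) (Subtype.ext hk)
    (Subtype.ext hx) (Subtype.ext hkx)
  ⟨g, g.2, h1.imp (congrArg Subtype.val) (congrArg Subtype.val),
    h2.imp (congrArg Subtype.val) (congrArg Subtype.val)⟩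

theorem cent (h : CU I z) {x : Q} (hx : x ∈ I) (hc : x ∈ centralizer (I : Set Q)) :
    x = 1 ∨ x = z := by
  obtain ⟨k, hk⟩ := exists_pow_coprime_orderOf (p := 2) x
  have h1 : zpowers (x ^ 2 ^ k) ≤ pPrimeCore 2 Q := by
    refine le_pPrimeCore_of_isSubnormal (isSubnormal_of_le_normalizer (zpowers_le.2 (pow_mem hx _))
      (fun y hy => UI.mem_normalizer_zpowers (Or.inl (cj_comm.2 ?_))) h.comp.isSubnormal)
      (by rwa [Nat.card_zpowers])
    exact mem_cent.1 (pow_mem hc _) y hy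
  rw [h.core, le_bot_iff, zpowers_eq_bot] at h1
  obtain ⟨w, hw, -, h3⟩ := h.exists_inverting hx ⟨k, h1⟩
  rw [cj_comm.2 (mem_cent.1 hc w hw)] at h3
  exact h.uniq x hx (by nth_rewrite 2 [h3]; simp)

theorem not_cent (h : CU I z) {x : Q} (hx : x ∈ I) (h2 : x * x = z) :
    x ∉ centralizer (I : Set Q) := fun hc => by
  rcases h.cent hx hc with rfl | rfl
  · exact h.ne (by simpa using h2.symm)
  · exact h.ne (h2.symm.trans h.sq)

omit [Finite Q] in
theorem le_cent (h : CU I z) (h' : CU I' z') (hne : I' ≠ I) : I' ≤ centralizer (I : Set Q) :=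
  le_centralizer_of_commutator_eq_bot (h'.comp.commutator_eq_bot_of_ne h.comp hne)

omit [Finite Q] in
theorem comm (h : CU I z) (h' : CU I' z') (hne : I' ≠ I) {x y : Q} (hx : x ∈ I) (hy : y ∈ I') :
    x * y = y * x := mem_cent.1 (h.le_cent h' hne hy) x hx

theorem inter (h : CU I z) (h' : CU I' z') (hne : I' ≠ I) {x : Q} (hx : x ∈ I) (hx' : x ∈ I') :
    x = 1 ∨ x = z := h.cent hx (h.le_cent h' hne hx')

theorem odd_mul (h : CU I z) {x r : Q} (hx : x ∈ I) (h2 : P2 x) (hr : r ∈ centralizer (I : Set Q))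
    (ho : Odd (orderOf (x * r))) : x = 1 ∨ x = z := by
  refine h.cent hx (h2.mem_of_pow ho ?_)
  have := pow_orderOf_eq_one (x * r)
  rw [Commute.mul_pow (mem_cent.1 hr x hx), mul_eq_one_iff_eq_inv] at this
  rw [this]; exact inv_mem (pow_mem hr _)

omit [Finite Q] in
theorem inner (h : CU I z) {e : Q} (he : e ∈ layer Q) :
    ∃ y ∈ I, ∃ r ∈ centralizer (I : Set Q), y * r = e :=
  (mem_sup_of_le_normalizer_right (le_normalizer_centralizer_self I)).1
    (h.comp.layer_le_sup_centralizer he)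

theorem quasi (h : CU I z) : IsPQuasi 2 I :=
  (h.comp.isPComponent (h.comp.dvd_card_of_pPrimeCore_eq_bot h.core)).isPQuasi

theorem le_pLayer (h : CU I z) {σ : Q} (hσ : σ ∈ centralizer (I : Set Q)) :
    I ≤ (pLayer 2 (centralizer ({σ} : Set Q))).map (centralizer ({σ} : Set Q)).subtype := by
  have hle : I ≤ centralizer ({σ} : Set Q) := fun x hx =>
    mem_centralizer_singleton_iff.2 (mem_cent.1 hσ x hx)
  exact le_pLayerOf hle ((isPComponent_subgroupOf_iff hle).2 ⟨h.comp.isSubnormal.subgroupOf,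
    h.quasi⟩)

theorem diag (h : CU I z) {σ : Q} (hσ : σ * σ = 1) (hn : σ ∉ normalizer (I : Set Q)) {x : Q}
    (hx : x ∈ I) : x * (σ * x * σ⁻¹) ∈
      (pLayer 2 (centralizer ({σ} : Set Q))).map (centralizer ({σ} : Set Q)).subtype := by
  have hne : cj σ I ≠ I := fun e => hn (cj_eq_iff.1 e)
  have hc : ∀ x ∈ I, ∀ y ∈ I, x * (σ * y * σ⁻¹) = σ * y * σ⁻¹ * x := fun x hx y hy =>
    h.comm (h.conj σ) hne hx (cj_mem hy σ)
  let f : I →* Q := MonoidHom.mk' (fun x => x * (σ * x * σ⁻¹)) fun x y => by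
    simp only [coe_mul]
    calc _ = x * ((y : Q) * (σ * x * σ⁻¹)) * (σ * y * σ⁻¹) := by group
      _ = _ := by rw [hc _ y.2 _ x.2]; group
  have hf : ∀ x : I, f x = x * (σ * x * σ⁻¹) := fun _ => rfl
  have hq : IsPQuasi 2 ((⊤ : Subgroup I).map f) := by
    refine IsPQuasi.map_of_ne_bot ?_ f fun e => ?_
    · simpa using (isPQuasi_subgroupOf_iff (le_refl I)).2 h.quasi
    · obtain ⟨u, hu, -, -, h1, -⟩ := h.exists_q8
      have : f ⟨u, hu⟩ = 1 := (eq_bot_iff.1 e) ⟨⟨u, hu⟩, trivial, rfl⟩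
      rw [hf, mul_eq_one_iff_eq_inv] at this
      refine h.not_cent hu h1 (h.le_cent (h.conj σ) hne ?_)
      simp only at this
      rw [this]; exact inv_mem (cj_mem hu σ)
  have iσ : σ⁻¹ = σ := inv_eq_of_mul_eq_one_right hσ
  have hle : (⊤ : Subgroup I).map f ≤ centralizer ({σ} : Set Q) := by
    rintro _ ⟨y, -, rfl⟩
    rw [mem_centralizer_singleton_iff, hf, hc _ y.2 _ y.2, iσ]
    calc _ = σ * y * σ * y * σ * (σ * σ) := by rw [hσ, mul_one]
      _ = σ * (y * (σ * y * σ)) * (σ * σ) := by group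
      _ = _ := by rw [hσ, mul_one]; nth_rewrite 3 [← iσ]; rw [hc _ y.2 _ y.2, iσ]
  have hl : (⊤ : Subgroup I).map f ≤ layer Q ⊓ centralizer ({σ} : Set Q) := by
    refine le_inf ?_ hle
    rintro _ ⟨y, -, rfl⟩
    exact mul_mem (h.comp.le_layer y.2) ((h.conj σ).comp.le_layer (cj_mem y.2 σ))
  refine le_pLayerOf hle ((isPComponent_subgroupOf_iff hle).2 ⟨?_, hq⟩) ⟨⟨x, hx⟩, trivial, rfl⟩
  refine isSubnormal_subgroupOf_trans hl inf_le_right
    (isSubnormal_subgroupOf_of_le_normalizer fun e he => ?_) ?_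
  · refine mem_normalizer_fintype ?_
    rintro _ ⟨y, -, rfl⟩
    refine ⟨⟨_, cj_mem_of_norm (h.comp.layer_le_normalizer he.1) y.2⟩, trivial, ?_⟩
    have := mem_centralizer_singleton_iff.1 he.2
    simp only [hf]
    calc _ = e * y * e⁻¹ * ((σ * e) * y * (σ * e)⁻¹) := by group
      _ = _ := by rw [← this]; group
  · rw [inf_subgroupOf_right]; exact Normal.isSubnormal inferInstance

omit [Finite Q] in
theorem cj_cases (h : CU I z) {β r : Q} (hβ : β * β = 1) (hn : β ∈ normalizer (I : Set Q))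
    (hr : r ∈ I) (hc : β * (r * β * r⁻¹) = r * β * r⁻¹ * β) :
    r * β * r⁻¹ = β ∨ r * β * r⁻¹ = z * β := by
  have iβ : β⁻¹ = β := inv_eq_of_mul_eq_one_right hβ
  have h1 : r * β * r⁻¹ * β⁻¹ ∈ I := by
    rw [mul_assoc, mul_assoc, ← mul_assoc β]; exact mul_mem hr (cj_mem_of_norm hn (inv_mem hr))
  rcases h.uniq _ h1 (by
    rw [iβ]
    calc _ = r * β * r⁻¹ * (β * (r * β * r⁻¹)) * β := by group
      _ = r * (β * β) * r⁻¹ * (β * β) := by rw [hc]; group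
      _ = 1 := by rw [hβ]; group) with e | e
  · exact Or.inl (mul_inv_eq_one.1 e)
  · exact Or.inr (mul_inv_eq_iff_eq_mul.1 e)

/-- an involution acting nontrivially on `I` is conjugate to its product with `z` -/
theorem exists_flip (h : CU I z) {t β : Q} (ht : P2 t) (hn : t ∈ normalizer (I : Set Q))
    (hβt : β ∈ zpowers t) (hβ : β * β = 1) (hc : β ∉ centralizer (I : Set Q)) :
    ∃ w ∈ I, β * w * β⁻¹ = w * z ∧ P2 (w⁻¹ * (t * w * t⁻¹)) := by
  have hβn : β ∈ normalizer (I : Set Q) := zpowers_le.2 hn hβt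
  have hcβ : ∀ γ ∈ zpowers β, γ * β * γ⁻¹ = β := fun γ hγ =>
    cj_comm.2 (UI.comm_of_mem_zpowers hγ (mem_zpowers β))
  obtain ⟨P, hP, hle⟩ := exists_isSylowIn_ge (K := I ⊔ zpowers t) ht.isPGroup le_sup_right
  have hR := hP.inf_of_le_normalizer le_sup_left (sup_le le_normalizer (zpowers_le.2 hn))
  have hRn : ∀ s ∈ zpowers t, ∀ r ∈ P ⊓ I, s * r * s⁻¹ ∈ P ⊓ I := fun s hs r hr =>
    ⟨P.mul_mem (P.mul_mem (hle hs) hr.1) (P.inv_mem (hle hs)),
      cj_mem_of_norm (zpowers_le.2 hn hs) hr.2⟩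
  by_cases hRc : P ⊓ I ≤ centralizer ({β} : Set Q)
  · exfalso
    have hY : β ∈ I ⊔ zpowers β := mem_sup_right (mem_zpowers β)
    have hi : IsIsolated (⟨β, hY⟩ : (I ⊔ zpowers β : Subgroup Q)) := by
      rintro ⟨g, hg⟩ hcm
      obtain ⟨r, hr, γ, hγ, rfl⟩ := (mem_sup_of_le_normalizer_left (zpowers_le.2 hβn)).1 hg
      have e : r * γ * β * (r * γ)⁻¹ = r * β * r⁻¹ := by
        rw [show r * γ * β * (r * γ)⁻¹ = r * (γ * β * γ⁻¹) * r⁻¹ by group, hcβ γ hγ]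
      have hcm' : β * (r * γ * β * (r * γ)⁻¹) = r * γ * β * (r * γ)⁻¹ * β :=
        congrArg Subtype.val hcm.eq
      refine Subtype.ext ?_
      change r * γ * β * (r * γ)⁻¹ = β
      rw [e] at hcm' ⊢
      refine (h.cj_cases hβ hβn hr hcm').resolve_right fun e1 => ?_
      obtain ⟨_, ⟨j, rfl⟩, h2⟩ := exists_odd_pow r
      have e2 : r ^ 2 * β = β * r ^ 2 := by
        rw [← cj_comm, show r ^ 2 * β * (r ^ 2)⁻¹ = r * (r * β * r⁻¹) * r⁻¹ by rw [_root_.sq]; group, e1,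
          show r * (z * β) * r⁻¹ = (r * z) * r⁻¹ * (r * β * r⁻¹) by group, e1, h.cen]
        simp [← mul_assoc, h.sq]
      have e3 : r ^ (2 * j + 1) * β * (r ^ (2 * j + 1))⁻¹ = z * β := by
        rw [pow_succ', pow_mul, show r * (r ^ 2) ^ j * β * (r * (r ^ 2) ^ j)⁻¹ =
          r * ((r ^ 2) ^ j * β * ((r ^ 2) ^ j)⁻¹) * r⁻¹ by group,
          cj_comm.2 (Commute.pow_left e2 j).eq, e1]
      obtain ⟨s, hs⟩ : ∃ s, s = r ^ (2 * j + 1) := ⟨_, rfl⟩
      rw [← hs] at h2 e3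
      have hsI : s ∈ I := hs ▸ pow_mem hr _
      have hsn : s ∈ normalizer ((I ⊓ centralizer ({β} : Set Q) : Subgroup Q) : Set Q) := by
        refine mem_normalizer_fintype fun c hc => 
          ⟨I.mul_mem (I.mul_mem hsI hc.1) (I.inv_mem hsI), ?_⟩
        have e4 : β = z * (s * β * s⁻¹) := by rw [e3, ← mul_assoc, h.sq, one_mul]
        have e5 := mem_centralizer_singleton_iff.1 hc.2
        refine mem_centralizer_singleton_iff.2 ?_
        rw [e4]
        calc _ = (s * c * s⁻¹ * z) * s * β * s⁻¹ := by group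
          _ = z * s * (c * β) * s⁻¹ := by rw [h.cen]; group
          _ = _ := by rw [e5]; group
      obtain ⟨P1, hP1, hle1⟩ := exists_isSylowIn_ge
        (K := (I ⊓ centralizer ({β} : Set Q)) ⊔ zpowers s) h2.isPGroup le_sup_right
      have h3 := hP1.inf_of_le_normalizer le_sup_left (sup_le le_normalizer (zpowers_le.2 hsn))
      have h4 := h3.card_eq_card (hR.mono (le_inf inf_le_right hRc) inf_le_left)
      have h5 := hR.card_dvd hP1.isPGroup (hP1.le.trans (sup_le inf_le_left (zpowers_le.2 hsI)))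
      have h6 := eq_of_le_of_card_ge (inf_le_left : P1 ⊓ (I ⊓ centralizer ({β} : Set Q)) ≤ P1)
        (by rw [h4]; exact Nat.le_of_dvd Nat.card_pos h5)
      have h7 : s ∈ P1 ⊓ (I ⊓ centralizer ({β} : Set Q)) := h6.symm ▸ hle1 (mem_zpowers s)
      rw [cj_comm.2 (mem_centralizer_singleton_iff.1 h7.2.2)] at e3
      exact h.ne (by simpa using e3.symm)
    have hz := zstar (Subtype.ext (by simpa [_root_.sq] using hβ)) hi
    refine hc (mem_cent.2 fun x hx => ?_)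
    have h1 : x * β * x⁻¹ * β⁻¹ ∈ pPrimeCore 2 Q :=
      pPrimeCoreOf_le_pPrimeCore_of_isSubnormal h.comp.isSubnormal
        (pPrimeCoreOf_inf_le_pPrimeCoreOf (le_sup_left : I ≤ I ⊔ zpowers β)
          ⟨⟨_, hz ⟨x, mem_sup_left hx⟩, rfl⟩, by
            rw [mul_assoc, mul_assoc, ← mul_assoc β]
            exact mul_mem hx (cj_mem_of_norm hβn (inv_mem hx))⟩)
    rw [h.core, mem_bot, mul_inv_eq_one] at h1
    exact cj_comm.1 h1
  have hβR : zpowers β ≤ normalizer ((P ⊓ I : Subgroup Q) : Set Q) :=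
    zpowers_le.2 (mem_normalizer_fintype (hRn β hβt))
  have hP0 : IsPGroup 2 ((P ⊓ I) ⊔ zpowers β : Subgroup Q) :=
    hP.isPGroup.to_le (sup_le inf_le_left (zpowers_le.2 (hle hβt)))
  obtain ⟨g, hg, hgn, hgA⟩ := exists_mem_normalizer_not_mem hP0.isNilpotent
    (U := ((P ⊓ I) ⊔ zpowers β) ⊓ centralizer ({β} : Set Q))
    (lt_of_le_of_ne inf_le_left fun e => hRc (le_sup_left.trans (inf_eq_left.1 e)))
  obtain ⟨r, hr, γ, hγ, rfl⟩ := (mem_sup_of_le_normalizer_left hβR).1 hg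
  have e : r * γ * β * (r * γ)⁻¹ = r * β * r⁻¹ := by
    rw [show r * γ * β * (r * γ)⁻¹ = r * (γ * β * γ⁻¹) * r⁻¹ by group, hcβ γ hγ]
  have h1 := cj_mem_of_norm hgn (x := β) ⟨mem_sup_right (mem_zpowers β),
    mem_centralizer_singleton_iff.2 rfl⟩
  rw [e] at h1
  rcases h.cj_cases hβ hβn hr.2 (mem_centralizer_singleton_iff.1 h1.2).symm with e1 | e1
  · exact absurd ⟨hg, mem_centralizer_singleton_iff.2 (cj_comm.1 (e.trans e1))⟩ hgA
  refine ⟨r⁻¹, inv_mem hr.2, ?_, .of_mem hR.isPGroup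
    (mul_mem (inv_mem (inv_mem hr)) (hRn t (mem_zpowers t) _ (inv_mem hr)))⟩
  calc _ = r⁻¹ * (r * β * r⁻¹) * β⁻¹ := by group
    _ = _ := by rw [e1]; group

end CU

end Cfsg.Lib.JK
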