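import Cfsg.Agent.Lib.JK.Split

/-! Part (i). -/

set_option autoImplicit false

namespace Cfsg.Lib.JK
open Subgroup

variable {G : Type*} [Group G] [Finite G]

namespace Sp
variable {a b k k' : G} {K K' : Subgroup G}

/-- a square root of `a` does not centralize an involution `ξ w` inverting `k` -/
theorem not_comm (h : Sp b a K K' k k') {t : G} (ha : t ∈ C a) (hb : t ∈ C b) (t2 : t * t = a)
    {ξ w : Qt b} (hξ : ξ ∈ bar b K) (hw : w ∈ bar b K') (ξ2 : ξ * ξ = q b b)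
    (hk : ξ * q b k * ξ⁻¹ = (q b k)⁻¹) (c : q b t * (ξ * w) = ξ * w * q b t) : False := by
  have cu := h.hK.cu
  obtain ⟨τ, hτ⟩ : ∃ τ, τ = q b t := ⟨_, rfl⟩
  have cz : ∀ g : Qt b, g * q b b * g⁻¹ = q b b := fun g => cj_comm.2 (q_cen g)
  rw [← hτ] at c
  have c' : τ * ξ * τ⁻¹ * (τ * w * τ⁻¹) = ξ * w := by
    rw [← cj_comm.2 c]; group
  have e1 : τ * τ * ξ * (τ * τ)⁻¹ = ξ := by
    rw [show τ * τ * ξ * (τ * τ)⁻¹ = τ * (τ * ξ * τ⁻¹) * τ⁻¹ by group]
    by_cases hn : t ∈ normalizer (K : Set G)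
    · have h1 := cj_mem_of_norm ((h.hK.norm_iff hb).2 hn) hξ
      have h2 := cj_mem_of_norm ((h.hK'.norm_iff hb).2 (h.norm' ha hb hn)) hw
      rw [← hτ] at h1 h2
      rcases cu.inter h.hK'.cu h.bne (mul_mem (inv_mem hξ) h1) (by
        rw [show ξ⁻¹ * (τ * ξ * τ⁻¹) = w * (τ * w * τ⁻¹)⁻¹ by
          rw [inv_mul_eq_iff_eq_mul, ← mul_assoc, ← c']; group]
        exact mul_mem hw (inv_mem h2)) with e | e
      · rw [← inv_mul_eq_one.1 e, ← inv_mul_eq_one.1 e]
      · rw [inv_mul_eq_iff_eq_mul] at e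
        rw [e, show τ * (ξ * q b b) * τ⁻¹ = τ * ξ * τ⁻¹ * (τ * q b b * τ⁻¹) by group, e, cz,
          mul_assoc, cu.sq, mul_one]
    · have h1 : τ * ξ * τ⁻¹ ∈ bar b K' := by
        rw [← (h.swap ha hb hn).1, bar_cj hb, hτ]; exact cj_mem hξ _
      have h2 : τ * w * τ⁻¹ ∈ bar b K := by
        rw [← (h.swap ha hb hn).2, bar_cj hb, hτ]; exact cj_mem hw _
      rw [← h.comm h2 h1] at c'
      rcases cu.inter h.hK'.cu h.bne (mul_mem (inv_mem hξ) h2) (by
        rw [show ξ⁻¹ * (τ * w * τ⁻¹) = w * (τ * ξ * τ⁻¹)⁻¹ by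
          rw [inv_mul_eq_iff_eq_mul, ← mul_assoc, ← c']; group]
        exact mul_mem hw (inv_mem h1)) with e | e
      · rw [← inv_mul_eq_one.1 e] at c'
        rw [mul_left_cancel c', ← inv_mul_eq_one.1 e]
      · rw [inv_mul_eq_iff_eq_mul] at e
        rw [e, mul_assoc] at c'
        have e2 : τ * ξ * τ⁻¹ = w * q b b := by
          rw [← mul_left_cancel c', q_cen, ← mul_assoc, cu.sq, one_mul]
        rw [e2, show τ * (w * q b b) * τ⁻¹ = τ * w * τ⁻¹ * (τ * q b b * τ⁻¹) by group, e, cz,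
          mul_assoc, cu.sq, mul_one]
  rw [hτ, q_sq hb t2, h.e, show q b k * q b k' * ξ * (q b k * q b k')⁻¹ =
    q b k * (q b k' * ξ * (q b k')⁻¹) * (q b k)⁻¹ by group, cj_comm.2 (h.comm hξ h.qm').symm,
    cj_comm] at e1
  rw [cj_comm.2 e1.symm] at hk
  exact cu.ne_inv h.q2 hk

end Sp

section
variable {a b y k k' x x' : G} {J J' K K' : Subgroup G}

theorem stepG1 (hb : Sp b a K K' k k') (ha : Sp a b J J' x x') (hy : y ∈ K) (y2 : P2 y)
    (hya : y ∈ C a) (hn : y ∉ normalizer (J : Set G)) {u : G} (hu : u ∈ J) (u2 : P2 u)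
    (hub : u ∈ C b) (hun : u ∉ normalizer (K : Set G)) :
    q a y * q a x * (q a y)⁻¹ = q a x' := by
  have hyb := hb.hK.le hy
  have hua := ha.hK.le hu
  have hba := ha.ab
  refine (ha.act' hyb hya hn).elim id fun e => False.elim ?_
  have cu := ha.hK.cu
  have m1 := q_mem hua hu
  obtain ⟨M, hM⟩ := cu.exists_pow_four m1 (q_p2 hua u2) fun e => by
    rw [← q_mul hua hua] at e
    rcases ha.hK.uniq u hu (one_of_q (by (repeat' first | assumption | exact C_self _ | apply mul_mem | apply inv_mem | apply pow_mem)) (u2.mul u2 rfl) e) with rfl | rfl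
    · exact hun (one_mem _)
    · exact hun hb.a_norm
  have h1 := ha.eq_k (pow_mem m1 M) hM
    (Commute.pow_left (q_comm hua hba (mem_C.1 hub)) M).eq
  have h2 := mem_cent.1 (ha.hK.cent_of_not_norm hya hn (inv_mem m1)) _ m1
  have ib : (q a b)⁻¹ = q a b := inv_eq_of_mul_eq_one_right (q_sq1 hba hb.hK.sq)
  have e1 : q a (b * (u * y * u⁻¹ * y⁻¹) ^ M) = 1 := by
    simp (disch := (repeat' first | assumption | exact C_self _ | apply mul_mem | apply inv_mem | apply pow_mem)) only [q_mul, q_inv, q_pow]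
    rw [show q a u * q a y * (q a u)⁻¹ * (q a y)⁻¹ = q a u * (q a y * (q a u)⁻¹ * (q a y)⁻¹) by
      group, Commute.mul_pow h2, conj_pow, inv_pow]
    rcases h1 with e2 | e2 <;> rw [e2]
    · rw [cj_inv e, inv_inv, ← ha.e, q_sq1 hba hb.hK.sq]
    · rw [inv_inv, e, ← mul_inv_rev, ← ha.comm ha.qm ha.qm', ← ha.e, mul_inv_cancel]
  have ho := q_odd (a := b) (by (repeat' first | assumption | exact C_self _ | apply mul_mem | apply inv_mem | apply pow_mem)) (odd_of_q (by (repeat' first | assumption | exact C_self _ | apply mul_mem | apply inv_mem | apply pow_mem)) e1)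
  have m2 := q_mem hyb hy
  have m3 : q b u * q b y * (q b u)⁻¹ ∈ bar b K' := by
    rw [← (hb.swap hua hub hun).1, bar_cj hub]; exact cj_mem m2 _
  have c1 : Commute (q b u * q b y * (q b u)⁻¹) (q b y)⁻¹ :=
    (Commute.symm (hb.comm m2 m3)).inv_right
  have e2 : q b b * ((q b u * q b y * (q b u)⁻¹) ^ M * (q b y)⁻¹ ^ M) = 1 := by
    rw [← c1.mul_pow]
    simp (disch := (repeat' first | assumption | exact C_self _ | apply mul_mem | apply inv_mem | apply pow_mem)) only [q_mul, q_inv, q_pow] at ho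
    exact ((P2.of_sq hb.hK.cu.sq).mul ((((q_p2 hyb y2).conj _).mul (q_p2 hyb y2).inv c1).pow M)
      (q_cen _).symm).eq_one ho
  rw [← mul_assoc, inv_pow, mul_inv_eq_one] at e2
  rcases hb.hK.cu.inter hb.hK'.cu hb.bne (pow_mem m2 M)
    (e2 ▸ mul_mem hb.hK'.cu.mem (pow_mem m3 M)) with e | e <;> rw [conj_pow, e] at e2
  · exact hb.hK.cu.ne (by simpa using e2)
  · rw [cj_comm.2 (q_cen _), hb.hK.cu.sq] at e2
    exact hb.hK.cu.ne e2.symm

theorem stepG4 (hb : Sp b a K K' k k') (ha : Sp a b J J' x x') {s : G} (hsa : s ∈ C a)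
    (hsb : s ∈ C b) (s2 : s * s = 1) (hn : s ∉ normalizer (J : Set G))
    (hs : q a s * q a x * (q a s)⁻¹ = (q a x')⁻¹)
    {ξ w : Qt b} (hξ : ξ ∈ bar b K) (hw : w ∈ bar b K') (ξ2 : ξ * ξ = q b b) (w2 : w * w = q b b)
    (hk : ξ * q b k * ξ⁻¹ = (q b k)⁻¹) (hk' : w * q b k' * w⁻¹ = (q b k')⁻¹)
    (e : q b s = ξ * w) : False := by
  have hab := hb.ab
  have hba := ha.ab
  have a2 := ha.hK.sq
  have b2 := hb.hK.sq
  have cu := hb.hK.cu
  have hbJ := ha.a_norm
  obtain ⟨g, hg, g1, g2⟩ := cu.exists_cycle hb.qm hξ hb.q2 ξ2 hk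
  obtain ⟨g', hg', g1', g2'⟩ := hb.hK'.cu.exists_cycle hb.qm' hw hb.q2' w2 hk'
  have key : ∀ u ∈ bar b K, ∀ v ∈ bar b K',
      g * g' * (u * v) * (g * g')⁻¹ = g * u * g⁻¹ * (g' * v * g'⁻¹) := by
    intro u hu v hv
    have h1 := cj_mem_of_norm (le_normalizer hg') hv
    calc _ = g * ((g' * u) * v * g'⁻¹) * g⁻¹ := by group
      _ = g * u * ((g' * v * g'⁻¹) * g⁻¹) := by rw [← hb.comm hu hg']; group
      _ = _ := by rw [← hb.comm (inv_mem hg) h1]; group
  have z1 : ∀ u v : Qt b, u * q b b * v = u * v * q b b := fun u v => by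
    rw [mul_assoc, ← q_cen, mul_assoc]
  have z2 : ∀ u v : Qt b, u * q b b * (v * q b b) = u * v := fun u v => by
    rw [z1, ← mul_assoc, mul_assoc, cu.sq, mul_one]
  have sq : ∀ u : G, u ∈ C b → u * u = 1 → u * b * (u * b) = 1 := fun u hu h => by
    rw [mul_assoc, ← mul_assoc b, ← mem_C.1 hu, mul_assoc, b2, mul_one, h]
  obtain ⟨s', hs', e1⟩ : ∃ s', (s' = s ∨ s' = s * b) ∧
      g * g' * q b a * (g * g')⁻¹ = q b s' := by
    rw [hb.e, key _ hb.qm _ hb.qm']
    rcases g1 with g1 | g1 <;> rcases g1' with g1' | g1' <;> rw [g1, g1']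
    · exact ⟨s, Or.inl rfl, e.symm⟩
    · exact ⟨_, Or.inr rfl, by simp (disch := (repeat' first | assumption | exact C_self _ | apply mul_mem | apply inv_mem | apply pow_mem)) only [q_mul, q_inv, q_pow]; rw [e, mul_assoc]⟩
    · exact ⟨_, Or.inr rfl, by simp (disch := (repeat' first | assumption | exact C_self _ | apply mul_mem | apply inv_mem | apply pow_mem)) only [q_mul, q_inv, q_pow]; rw [e, z1]⟩
    · exact ⟨s, Or.inl rfl, by rw [e, z2]⟩
  obtain ⟨a', ha', e2⟩ : ∃ a', (a' = a ∨ a' = a * b) ∧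
      g * g' * q b (a * s) * (g * g')⁻¹ = q b a' := by
    have : q b (a * s) = q b k * ξ * (q b k' * w) := by
      simp (disch := (repeat' first | assumption | exact C_self _ | apply mul_mem | apply inv_mem | apply pow_mem)) only [q_mul, q_inv, q_pow]; rw [hb.e, e, mul_assoc, ← mul_assoc (q b k'), ← hb.comm hξ hb.qm']; group
    rw [this, key _ (mul_mem hb.qm hξ) _ (mul_mem hb.qm' hw)]
    rcases g2 with g1 | g1 <;> rcases g2' with g1' | g1' <;> rw [g1, g1']
    · exact ⟨a, Or.inl rfl, hb.e.symm⟩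
    · exact ⟨_, Or.inr rfl, by simp (disch := (repeat' first | assumption | exact C_self _ | apply mul_mem | apply inv_mem | apply pow_mem)) only [q_mul, q_inv, q_pow]; rw [hb.e, mul_assoc]⟩
    · exact ⟨_, Or.inr rfl, by simp (disch := (repeat' first | assumption | exact C_self _ | apply mul_mem | apply inv_mem | apply pow_mem)) only [q_mul, q_inv, q_pow]; rw [hb.e, z1]⟩
    · exact ⟨a, Or.inl rfl, by rw [hb.e, z2]⟩
  have s'a : s' ∈ C a := by rcases hs' with rfl | rfl <;> (repeat' first | assumption | exact C_self _ | apply mul_mem | apply inv_mem | apply pow_mem)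
  have s'b : s' ∈ C b := by rcases hs' with rfl | rfl <;> (repeat' first | assumption | exact C_self _ | apply mul_mem | apply inv_mem | apply pow_mem)
  have s'2 : s' * s' = 1 := by
    rcases hs' with rfl | rfl
    exacts [s2, sq s hsb s2]
  have s'n : s' ∉ normalizer (J : Set G) := by
    rcases hs' with rfl | rfl
    exacts [hn, fun h => hn ((mul_mem_cancel_right hbJ).1 h)]
  have s'x : q a s' * q a x * (q a s')⁻¹ = (q a x')⁻¹ := by
    rcases hs' with rfl | rfl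
    · exact hs
    · simp (disch := (repeat' first | assumption | exact C_self _ | apply mul_mem | apply inv_mem | apply pow_mem)) only [q_mul, q_inv, q_pow]
      rw [show q a s * q a b * q a x * (q a s * q a b)⁻¹ =
        q a s * (q a b * q a x * (q a b)⁻¹) * (q a s)⁻¹ by group,
        cj_comm.2 (q_comm ha.kb hba (mem_C.1 ha.ck)).symm, hs]
  have as' := C_symm s'a
  have bs' := C_symm s'b
  obtain ⟨h, hhb, -, h1, h2⟩ := lift2 (ξ := g * g') (e := a) (e' := s') (f := a * s) (f' := a')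
    hab s'b (by (repeat' first | assumption | exact C_self _ | apply mul_mem | apply inv_mem | apply pow_mem)) (by rcases ha' with rfl | rfl <;> (repeat' first | assumption | exact C_self _ | apply mul_mem | apply inv_mem | apply pow_mem)) a2 s'2
    (by rw [mul_assoc, ← mul_assoc s, mem_C.1 hsa, mul_assoc, s2, mul_one, a2])
    (by rcases ha' with rfl | rfl; exacts [a2, sq a hab a2]) (by (repeat' first | assumption | exact C_self _ | apply mul_mem | apply inv_mem | apply pow_mem))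
    (by rcases ha' with rfl | rfl <;> (repeat' first | assumption | exact C_self _ | apply mul_mem | apply inv_mem | apply pow_mem)) e1 e2
  have hJs := ha.hK.conj h
  rw [h1] at hJs
  have hbs : b ∈ normalizer (cj h J : Set G) := by
    have := (cj_norm h).2 hbJ
    rwa [cj_comm.2 (mem_C.1 hhb)] at this
  have hd := ha.hK.cu.diag (q_sq1 s'a s'2) (fun e => s'n ((ha.hK.norm_iff s'a).1 e)) ha.qm
  rw [s'x, ha.hK.cu.inv_eq ha.q2', ← mul_assoc, ← ha.e, q_cen, ← q_mul (C_self a) hba] at hd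
  have h3 := hJs.norm_of_inL (bal a2 s'2 s'a (by (repeat' first | assumption | exact C_self _ | apply mul_mem | apply inv_mem | apply pow_mem)) (by (repeat' first | assumption | exact C_self _ | apply mul_mem | apply inv_mem | apply pow_mem)) (.of_sq (sq a hab a2)) hd)
  have h4 : a' ∈ normalizer (cj h J : Set G) := by
    rcases ha' with rfl | rfl
    exacts [(mul_mem_cancel_right hbs).1 h3, h3]
  rw [← h2, cj_norm] at h4
  exact hn ((mul_mem_cancel_left (le_normalizer ha.hK.mem)).1 h4)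

theorem stepG (hb : Sp b a K K' k k') (ha : Sp a b J J' x x') (hy : y ∈ K) (y2 : P2 y)
    (hk : k ∈ zpowers y) (hya : y ∈ C a) (hn : y ∉ normalizer (J : Set G))
    (e : q a y * q a x * (q a y)⁻¹ = q a x') : False := by
  have hab := hb.ab
  have hba := ha.ab
  have a2 := ha.hK.sq
  have hyb := hb.hK.le hy
  have cu := hb.hK.cu
  have m1 := q_mem hyb hy
  have hk' : q b k ∈ zpowers (q b y) := by
    obtain ⟨n, rfl⟩ := hk
    exact ⟨n, (q_zpow hyb n).symm⟩
  obtain ⟨ξ, hξ, ξ2, h1⟩ := cu.exists_inverting m1 (q_p2 hyb y2)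
  obtain ⟨w, hw, w2, h2⟩ := hb.hK'.cu.exists_inverting hb.qm' (cu.p2 hb.q2')
  have h1' := UI.conj_of_mem_zpowers h1 hk'
  have ξ2' : ξ * q b y * (ξ * q b y) = q b b := by
    calc _ = ξ * q b y * ξ⁻¹ * (ξ * ξ) * q b y := by group
      _ = _ := by rw [h1, ξ2, q_cen]; simp
  have h1'' : ξ * q b y * q b k * (ξ * q b y)⁻¹ = (q b k)⁻¹ := by
    rw [show ξ * q b y * q b k * (ξ * q b y)⁻¹ = ξ * (q b y * q b k * (q b y)⁻¹) * ξ⁻¹ by group,
      cj_comm.2 (UI.comm_of_mem_zpowers (mem_zpowers _) hk'), h1']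
  have lf : ∀ ξ ∈ bar b K, ξ * ξ = q b b → ξ * q b k * ξ⁻¹ = (q b k)⁻¹ →
      ∃ s ∈ C b, s ∈ C a ∧ s * s = 1 ∧ q b s = ξ * w := by
    intro ξ hξ ξ2 h1
    have e1 : ξ * w * (ξ * w) = 1 := by
      rw [mul_assoc, ← mul_assoc w, ← hb.comm hξ hw, mul_assoc, w2, ← mul_assoc, ξ2, cu.sq]
    obtain ⟨s, h3, h4, h5, h6⟩ := liftc hab a2 (.of_sq e1) (cj_comm.1 (by
      calc _ = ξ * ((w * q b k) * q b k' * w⁻¹) * ξ⁻¹ := by rw [hb.e]; group
        _ = ξ * q b k * ((w * q b k' * w⁻¹) * ξ⁻¹) := by rw [← hb.comm hb.qm hw]; group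
        _ = (ξ * q b k * ξ⁻¹) * (q b k')⁻¹ := by
          rw [h2, ← hb.comm (inv_mem hξ) (inv_mem hb.qm')]; group
        _ = _ := by
          rw [h1, ← mul_inv_rev, ← hb.comm hb.qm hb.qm', ← hb.e,
            inv_eq_of_mul_eq_one_right (q_sq1 hab a2)]))
    exact ⟨s, h3, h4, one_of_q (a := b) (by (repeat' first | assumption | exact C_self _ | apply mul_mem | apply inv_mem | apply pow_mem)) (h5.mul h5 rfl) (by simp (disch := (repeat' first | assumption | exact C_self _ | apply mul_mem | apply inv_mem | apply pow_mem)) only [q_mul, q_inv, q_pow]; rw [h6, e1]), h6⟩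
  have inv : ∀ ξ ∈ bar b K, ξ * ξ = q b b → ξ * q b k * ξ⁻¹ = (q b k)⁻¹ →
      ∀ n ∈ C b, n ∈ C a → n * n = 1 → q b n = ξ * w → n ∈ normalizer (J : Set G) →
      q a n * q a x * (q a n)⁻¹ = (q a x)⁻¹ ∧ q a n * q a x' * (q a n)⁻¹ = (q a x')⁻¹ := by
    intro ξ hξ ξ2 h1 n hnb hna n2 e1 hnJ
    have h3 : q a n * q a x * (q a n)⁻¹ = (q a x)⁻¹ := by
      refine (ha.act hnb hna hnJ).resolve_left fun e2 => ?_
      obtain ⟨t, hta, htb, htn, t2, e3⟩ := liftc2 hba hna hb.hK.sq n2 hnb (ha.hK.cu.p2 ha.q2)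
        (q_comm ha.kb hba (mem_C.1 ha.ck)) (cj_comm.1 e2).symm
      exact hb.not_comm hta htb (sq_of_q hta (C_self a) t2 a2 hta (by rw [e3, ha.q2])) hξ hw ξ2 h1
        (e1 ▸ q_comm htb hnb (mem_C.1 htn))
    refine ⟨h3, ?_⟩
    have e2 : q a x' = (q a x)⁻¹ * q a b := by rw [ha.e]; group
    rw [e2, show q a n * ((q a x)⁻¹ * q a b) * (q a n)⁻¹ = q a n * (q a x)⁻¹ * (q a n)⁻¹ *
      (q a n * q a b * (q a n)⁻¹) by group, cj_inv h3, cj_comm.2 (q_comm hna hba (mem_C.1 hnb)),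
      inv_inv, mul_inv_rev, inv_inv, inv_eq_of_mul_eq_one_right (q_sq1 hba hb.hK.sq)]
    exact q_comm ha.kb hba (mem_C.1 ha.ck)
  obtain ⟨s, hsb, hsa, s2, e1⟩ := lf ξ hξ ξ2 h1'
  obtain ⟨n, hnb, hna, n2, e2⟩ := lf _ (mul_mem hξ m1) ξ2' h1''
  obtain ⟨o, ho⟩ : ∃ o, o = s⁻¹ * n * y⁻¹ := ⟨_, rfl⟩
  have hoa : o ∈ C a := by rw [ho]; (repeat' first | assumption | exact C_self _ | apply mul_mem | apply inv_mem | apply pow_mem)
  have hob : o ∈ C b := by rw [ho]; (repeat' first | assumption | exact C_self _ | apply mul_mem | apply inv_mem | apply pow_mem)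
  have hodd : Odd (orderOf o) := odd_of_q hob (by
    rw [ho]; simp (disch := (repeat' first | assumption | exact C_self _ | apply mul_mem | apply inv_mem | apply pow_mem)) only [q_mul, q_inv, q_pow]; rw [e1, e2, mul_assoc ξ, hb.comm m1 hw]; group)
  have hoJ := ha.odd_norm hob hoa hodd
  have o1 := ha.odd_act hob hoa hodd
  have o2 := ha.symm.odd_act hob hoa hodd
  have e3 : n = s * o * y := by rw [ho]; group
  by_cases hs : s ∈ normalizer (J : Set G)
  · refine stepG4 hb ha hna hnb n2 (fun h => hn ?_) ?_ (mul_mem hξ m1) hw ξ2' w2 h1'' h2 e2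
    · rwa [e3, mul_mem_cancel_left (mul_mem hs hoJ)] at h
    · rw [e3]; simp (disch := (repeat' first | assumption | exact C_self _ | apply mul_mem | apply inv_mem | apply pow_mem)) only [q_mul, q_inv, q_pow]
      rw [← (inv ξ hξ ξ2 h1' s hsb hsa s2 e1 hs).2, ← o2, ← e]; group
  · have hnJ : n ∈ normalizer (J : Set G) := by
      rw [e3]
      exact ha.mul_norm (by (repeat' first | assumption | exact C_self _ | apply mul_mem | apply inv_mem | apply pow_mem)) (by (repeat' first | assumption | exact C_self _ | apply mul_mem | apply inv_mem | apply pow_mem)) (fun h => hs ((mul_mem_cancel_right hoJ).1 h)) hyb hya hn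
    refine stepG4 hb ha hsa hsb s2 hs ?_ hξ hw ξ2 w2 h1' h2 e1
    have e4 : q a y * q a x' * (q a y)⁻¹ = q a x := by
      have e2 : q a x' = (q a x)⁻¹ * q a b := by rw [ha.e]; group
      rw [e2, show q a y * ((q a x)⁻¹ * q a b) * (q a y)⁻¹ = q a y * (q a x)⁻¹ * (q a y)⁻¹ *
        (q a y * q a b * (q a y)⁻¹) by group, cj_inv e, cj_comm.2 (q_comm hya hba (mem_C.1 hyb)),
        ha.e, ha.comm ha.qm ha.qm', inv_mul_cancel_left]
    rw [show s = n * y⁻¹ * o⁻¹ by rw [e3]; group]; simp (disch := (repeat' first | assumption | exact C_self _ | apply mul_mem | apply inv_mem | apply pow_mem)) only [q_mul, q_inv, q_pow]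
    rw [← (inv _ (mul_mem hξ m1) ξ2' h1'' n hnb hna n2 e2 hnJ).2, ← cj_symm e4]
    nth_rewrite 2 [← cj_symm o1]
    group

theorem part_one (hJ : QC a J) (hK : QC b K) (hne : J ≠ K) (hy : y ∈ K) (y2 : P2 y)
    (hyy : y * y ≠ 1) (hya : y ∈ C a) : y ∈ normalizer (J : Set G) := by
  by_cases hab : a = b
  · subst hab; exact hJ.le_norm hK hy
  obtain ⟨j, hj⟩ := y2
  induction j generalizing y with
  | zero => rw [pow_zero, pow_one] at hj; rw [hj]; exact one_mem _
  | succ j ih =>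
  by_contra hn
  have y2 : P2 y := ⟨_, hj⟩
  have hn2 : y * y ∈ normalizer (J : Set G) := by
    by_cases h : y * y * (y * y) = 1
    · have := (hK.uniq _ (mul_mem hy hy) h).resolve_left hyy
      exact this ▸ stepB hJ hK hy this hya hn
    · exact ih (mul_mem hy hy) h (mul_mem hya hya) (by rwa [← sq, ← pow_mul, ← pow_succ'])
  obtain ⟨⟨w, hw, e1⟩, K', k', N, hb⟩ := stepD hJ hK hab hy y2 hyy hya hn hn2
  obtain ⟨w', hw', e2⟩ := hb.exists_flip hJ.sq
  have hba := C_symm hb.ab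
  have hyb := hK.le hy
  have hc := stepC hJ hK hy hba hya hn
  have f1 : w * a * w⁻¹ = a := cj_comm.2 (mem_C.1 hw)
  have f2 : w' * b * w'⁻¹ = b := cj_comm.2 (mem_C.1 hw')
  obtain ⟨g, g1, g2⟩ : ∃ g, g * a * g⁻¹ = b ∧ g * b * g⁻¹ = a := by
    refine ⟨w * w' * w⁻¹, ?_, ?_⟩
    · rw [show w * w' * w⁻¹ * a * (w * w' * w⁻¹)⁻¹ = w * (w' * (w⁻¹ * a * w⁻¹⁻¹) * w'⁻¹) * w⁻¹ by
        group, cj_symm f1, e2, show w * (a * b) * w⁻¹ = w * a * w⁻¹ * (w * b * w⁻¹) by group, f1, e1,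
        ← mul_assoc, hJ.sq, one_mul]
    · have f3 : w * (a * b) * w⁻¹ = b := by
        rw [show w * (a * b) * w⁻¹ = w * a * w⁻¹ * (w * b * w⁻¹) by group, f1, e1, ← mul_assoc,
          hJ.sq, one_mul]
      have f4 : w' * (a * b) * w'⁻¹ = a := by
        rw [show w' * (a * b) * w'⁻¹ = w' * a * w'⁻¹ * (w' * b * w'⁻¹) by group, f2, e2, mul_assoc,
          hK.sq, mul_one]
      rw [show w * w' * w⁻¹ * b * (w * w' * w⁻¹)⁻¹ = w * (w' * (w⁻¹ * b * w⁻¹⁻¹) * w'⁻¹) * w⁻¹ by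
        group, cj_symm f3, f4, f1]
  have ha0 := hb.conj g1 g2
  obtain ⟨J', x, x', ha⟩ : ∃ J' x x', Sp a b J J' x x' := by
    rcases ha0.eq_or hJ hc with e | e
    · exact ⟨_, _, _, e ▸ ha0⟩
    · exact ⟨_, _, _, e ▸ ha0.symm⟩
  have hI := hJ.conj g
  rw [g1] at hI
  have hu : g * y * g⁻¹ ∉ normalizer (K : Set G) := by
    have h1 : g * y * g⁻¹ ∉ normalizer (cj g J : Set G) := fun h => hn ((cj_norm g).1 h)
    rcases hb.eq_or hI (hJ.not_cent_cj hba g1 g2 hc) with e | e <;> rw [e] at h1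
    · exact h1
    · exact fun h => h1 (hb.norm' (g2 ▸ C_cj g hyb) (g1 ▸ C_cj g hya) h)
  refine stepG hb ha hy y2 (pow_mem (mem_zpowers y) N) hya hn ?_
  rcases ha.eq_or ha0.hK ha0.not_cent with e | e
  · exact stepG1 hb ha hy y2 hya hn (e ▸ cj_mem hy g) (y2.conj g) (g1 ▸ C_cj g hya) hu
  · have h1 := cj_mem (e ▸ cj_mem hy g) y
    rw [(ha.swap hyb hya hn).2] at h1
    have h2 : g * y * g⁻¹ ∈ C b := g1 ▸ C_cj g hya
    refine stepG1 hb ha hy y2 hya hn h1 ((y2.conj g).conj y) (by (repeat' first | assumption | exact C_self _ | apply mul_mem | apply inv_mem | apply pow_mem)) fun h => hu ?_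
    rwa [mul_mem_cancel_right (inv_mem (le_normalizer hy)), mul_mem_cancel_left
      (le_normalizer hy)] at h

end

end Cfsg.Lib.JK
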