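import Cfsg.Agent.Lib.Core.LBal
import Cfsg.Agent.Lib.Core.Pump
import Cfsg.Agent.Lib.ZStar.Main
import Cfsg.Agent.Lib.Transfer.Thompson
import Cfsg.Agent.Lib.PGroup.CyclicIndex

/-! Perfect groups with a unique involution. -/

set_option autoImplicit false

namespace Cfsg.Lib.JK
open Subgroup

section P2
variable {H : Type*} [Group H]

/-- `2`-elements -/
def P2 (x : H) : Prop := ∃ k : ℕ, x ^ 2 ^ k = 1

theorem P2.pow {x : H} (h : P2 x) (n : ℕ) : P2 (x ^ n) :=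
  h.imp fun k e => by rw [← pow_mul, mul_comm, pow_mul, e, one_pow]

theorem P2.inv {x : H} (h : P2 x) : P2 x⁻¹ := h.imp fun k e => by rw [inv_pow, e, inv_one]

theorem P2.conj {x : H} (h : P2 x) (g : H) : P2 (g * x * g⁻¹) :=
  h.imp fun k e => by rw [conj_pow, e]; simp

theorem P2.conj' {x : H} (h : P2 x) (g : H) : P2 (g⁻¹ * x * g) := by
  simpa using h.conj g⁻¹

theorem P2.mul {x y : H} (h : P2 x) (h' : P2 y) (c : x * y = y * x) : P2 (x * y) := by
  obtain ⟨k, e⟩ := h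
  obtain ⟨l, e'⟩ := h'
  refine ⟨k + l, ?_⟩
  rw [Commute.mul_pow c, pow_add, pow_mul, e, mul_comm (2 ^ k), pow_mul, e', one_pow, one_pow,
    mul_one]

theorem P2.of_sq {x : H} (h : x * x = 1) : P2 x := ⟨1, by rw [pow_one, sq, h]⟩

theorem P2.of_mul_self {x : H} (h : P2 (x * x)) : P2 x := by
  obtain ⟨k, e⟩ := h
  exact ⟨k + 1, by rw [pow_succ', pow_mul, sq, e]⟩

theorem P2.eq_one {x : H} (h : P2 x) (ho : Odd (orderOf x)) : x = 1 := by
  obtain ⟨k, e⟩ := h
  exact orderOf_eq_one_iff.1 (Nat.Coprime.eq_one_of_dvd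
    (Nat.Coprime.pow_right k (Nat.coprime_two_right.2 ho)) (orderOf_dvd_of_pow_eq_one e))

theorem P2.isPGroup {x : H} (h : P2 x) : IsPGroup 2 (zpowers x) := by
  obtain ⟨k, e⟩ := h
  rintro ⟨_, n, rfl⟩
  refine ⟨k, Subtype.ext ?_⟩
  change (x ^ n) ^ 2 ^ k = 1
  rw [← zpow_natCast, ← zpow_mul, mul_comm, zpow_mul, zpow_natCast, e, one_zpow]

theorem P2.of_mem {X : Subgroup H} (h : IsPGroup 2 X) {x : H} (hx : x ∈ X) : P2 x :=
  (h ⟨x, hx⟩).imp fun _ e => congrArg Subtype.val e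

theorem P2.map {K : Type*} [Group K] (f : H →* K) {x : H} (h : P2 x) : P2 (f x) :=
  h.imp fun k e => by rw [← map_pow, e, map_one]

theorem exists_odd_pow [Finite H] (x : H) : ∃ n, Odd n ∧ P2 (x ^ n) := by
  obtain ⟨k, m, h, e⟩ := Nat.exists_eq_two_pow_mul_odd (orderOf_pos x).ne'
  exact ⟨m, h, k, by rw [← pow_mul, mul_comm, ← e, pow_orderOf_eq_one]⟩

/-- the `2`-part of `x`, as a power fixing a given `2`-element -/
theorem exists_two_part [Finite H] (x : H) {K : Type*} [Group K] {ξ : K} (h : P2 ξ) :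
    ∃ n, P2 (x ^ n) ∧ ξ ^ n = ξ := by
  obtain ⟨m, hm, hx⟩ := exists_odd_pow x
  obtain ⟨k, e⟩ := h
  have hc : Nat.Coprime m (2 ^ k) := Nat.Coprime.pow_right k (Nat.coprime_two_right.2 hm)
  have ht : 0 < Nat.totient (2 ^ k) := Nat.totient_pos.2 (by positivity)
  refine ⟨m ^ Nat.totient (2 ^ k), ?_, ?_⟩
  · obtain ⟨t, ht'⟩ := Nat.exists_eq_succ_of_ne_zero ht.ne'
    rw [ht', pow_succ', pow_mul]; exact hx.pow _
  · have := Nat.ModEq.pow_totient hc
    conv_rhs => rw [← pow_one ξ]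
    exact pow_eq_pow_of_modEq this e

theorem pow_odd_of_sq {x : H} (h : x * x = 1) {n : ℕ} (hn : Odd n) : x ^ n = x := by
  obtain ⟨m, rfl⟩ := hn
  rw [pow_succ, pow_mul, sq, h, one_pow, one_mul]

theorem P2.mem_of_pow {x : H} (h : P2 x) {X : Subgroup H} {n : ℕ} (hn : Odd n) (hx : x ^ n ∈ X) :
    x ∈ X := by
  obtain ⟨k, e⟩ := h
  have hc : Nat.Coprime n (2 ^ k) := Nat.Coprime.pow_right k (Nat.coprime_two_right.2 hn)
  have ht : 0 < Nat.totient (2 ^ k) := Nat.totient_pos.2 (by positivity)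
  have h1 : x ^ (n ^ Nat.totient (2 ^ k)) = x := by
    conv_rhs => rw [← pow_one x]
    exact pow_eq_pow_of_modEq (Nat.ModEq.pow_totient hc) e
  obtain ⟨t, ht'⟩ := Nat.exists_eq_succ_of_ne_zero ht.ne'
  rw [← h1, ht', pow_succ', pow_mul]
  exact pow_mem hx _

theorem mem_of_sq_mem_of_odd {x : H} {X : Subgroup H} (ho : Odd (orderOf x)) (hx : x * x ∈ X) :
    x ∈ X := by
  obtain ⟨m, hm⟩ := ho
  have : x = ((x * x) ^ m)⁻¹ := by
    rw [eq_inv_iff_mul_eq_one, ← sq, ← pow_mul, ← pow_succ', ← hm, pow_orderOf_eq_one]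
  rw [this]; exact inv_mem (pow_mem hx _)

/-- a nontrivial `2`-element has an involution among its powers -/
theorem P2.exists_inv {x : H} (h : P2 x) (h1 : x ≠ 1) :
    ∃ n : ℕ, x ^ n ≠ 1 ∧ x ^ n * x ^ n = 1 := by
  classical
  have hk := Nat.find_spec h
  have h0 : Nat.find h ≠ 0 := fun e => h1 (by simpa [e] using hk)
  obtain ⟨j, hj⟩ := Nat.exists_eq_succ_of_ne_zero h0
  refine ⟨2 ^ j, Nat.find_min h (by omega), ?_⟩
  rw [← pow_add, ← two_mul, ← pow_succ', ← Nat.succ_eq_add_one, ← hj, hk]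

theorem cj_symm {s u v : H} (h : s * u * s⁻¹ = v) : s⁻¹ * v * s⁻¹⁻¹ = u := by rw [← h]; group

theorem cj_inv {s u v : H} (h : s * u * s⁻¹ = v) : s * u⁻¹ * s⁻¹ = v⁻¹ := by rw [← h]; group

theorem cj_inv' {s u v : H} (h : s * u⁻¹ * s⁻¹ = v⁻¹) : s * u * s⁻¹ = v := by
  simpa using cj_inv h

theorem cj_comm {s u : H} : s * u * s⁻¹ = u ↔ s * u = u * s := mul_inv_eq_iff_eq_mul

end P2

/-- `z` is the unique involution of `H` -/
structure UI {H : Type*} [Group H] (z : H) : Prop where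
  sq : z * z = 1
  ne : z ≠ 1
  uniq : ∀ t : H, t * t = 1 → t = 1 ∨ t = z

namespace UI
variable {H : Type*} [Group H] {z : H}

theorem comm (hU : UI z) (g : H) : g * z = z * g := by
  rcases hU.uniq (g * z * g⁻¹) (by
    rw [show g * z * g⁻¹ * (g * z * g⁻¹) = g * (z * z) * g⁻¹ by group, hU.sq]; simp) with h | h
  · exact absurd (by simpa using h) hU.ne
  · exact mul_inv_eq_iff_eq_mul.1 h

theorem cj_sq (hU : UI z) {u : H} (hu : u * u = z) (g : H) :
    g * u * g⁻¹ * (g * u * g⁻¹) = z := by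
  rw [show g * u * g⁻¹ * (g * u * g⁻¹) = g * (u * u) * g⁻¹ by group, hu, hU.comm]; simp

theorem inv_eq (hU : UI z) {u : H} (hu : u * u = z) : u⁻¹ = u * z := by
  rw [inv_eq_iff_mul_eq_one, ← mul_assoc, hu, hU.sq]

theorem eq_or (hU : UI z) {u v : H} (hu : u * u = z) (hv : v * v = z) (c : u * v = v * u) :
    v = u ∨ v = u⁻¹ := by
  rcases hU.uniq (u * v) (by
    rw [show u * v * (u * v) = u * (v * u) * v by group, ← c,
      show u * (u * v) * v = (u * u) * (v * v) by group, hu, hv, hU.sq]) with h | h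
  · exact Or.inr (eq_inv_of_mul_eq_one_right h)
  · exact Or.inl (mul_left_cancel (h.trans hu.symm))

theorem ne_inv (hU : UI z) {u : H} (hu : u * u = z) : u ≠ u⁻¹ := fun e =>
  hU.ne (by rw [← hu]; nth_rewrite 2 [e]; simp)

theorem exists_pow (hU : UI z) {x : H} (h : P2 x) (h1 : x ≠ 1) : ∃ n : ℕ, x ^ n = z := by
  obtain ⟨n, h2, h3⟩ := h.exists_inv h1
  exact ⟨n, (hU.uniq _ h3).resolve_left h2⟩

/-- a `2`-element of order at least `4` has a power with square `z` -/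
theorem exists_pow_four (hU : UI z) {x : H} (h : P2 x) (h1 : x * x ≠ 1) :
    ∃ n : ℕ, x ^ n * x ^ n = z := by
  obtain ⟨n, hn⟩ := hU.exists_pow (h.mul h rfl) h1
  exact ⟨n, by rw [← hn, (Commute.refl x).mul_pow]⟩

variable [Finite H]

theorem syl (hU : UI z) (hp : pResidual 2 H = ⊤) (S : Sylow 2 H) :
    ∃ (m : ℕ) (g b : H), g ∈ (S : Subgroup H) ∧ b ∈ (S : Subgroup H) ∧ b ∉ zpowers g ∧
      g ^ 2 ^ m * g ^ 2 ^ m = z ∧ (zpowers g).relIndex S = 2 ∧
      ∀ u ∈ (S : Subgroup H), u ∉ zpowers g → u * u = z ∧ u * g * u⁻¹ = g⁻¹ := by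
  have ho : orderOf z = 2 := orderOf_eq_prime (by rw [_root_.sq, hU.sq]) hU.ne
  rcases pg_two_group_unique_involution S.isPGroup' (fun x y hx hy => by
    have e : ∀ w : (S : Subgroup H), orderOf w = 2 → (w : H) = z := fun w hw => by
      have h1 : w ^ 2 = 1 := by have := pow_orderOf_eq_one w; rwa [hw] at this
      refine (hU.uniq w ?_).resolve_left fun h => ?_
      · rw [← _root_.sq]; exact_mod_cast congrArg Subtype.val h1
      · rw [Subtype.ext (a2 := (1 : (S : Subgroup H))) h] at hw; simp at hw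
    exact Subtype.ext ((e x hx).trans (e y hy).symm)) with h | ⟨m, a, b, hm, -, ha, hi, hb, h1, h2⟩
  · exact absurd hp ((hasNormalPComplement_two_of_isCyclic S h).pResidual_ne_top
      (ho ▸ orderOf_dvd_natCard z))
  obtain ⟨m, rfl⟩ := Nat.exists_eq_add_of_le' hm
  have hmem : ∀ u : (S : Subgroup H), (u : H) ∈ zpowers (a : H) ↔ u ∈ zpowers a := fun u =>
    ⟨fun ⟨n, e⟩ => ⟨n, Subtype.ext (by simpa using e)⟩, fun ⟨n, e⟩ => ⟨n, by simp [← e]⟩⟩
  have hz : (a : H) ^ 2 ^ m * (a : H) ^ 2 ^ m = z := by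
    rw [← pow_add, ← two_mul, ← pow_succ']
    refine (hU.uniq _ ?_).resolve_left fun h => ?_
    · rw [← pow_add, ← two_mul, ← pow_succ', ← ha]
      exact_mod_cast congrArg Subtype.val (pow_orderOf_eq_one a)
    · have : a ^ 2 ^ (m + 1) = 1 := Subtype.ext (by simpa using h)
      have := Nat.le_of_dvd (by positivity) (ha ▸ orderOf_dvd_of_pow_eq_one this)
      have h3 : 2 ^ (m + 1) < 2 ^ (m + 1 + 1) := Nat.pow_lt_pow_right (by norm_num) (by omega)
      omega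
  have hb2 : (b : H) * b = z := by
    have := congrArg Subtype.val h1
    rw [← hz, ← pow_add, ← two_mul, ← pow_succ', ← _root_.sq]; simpa using this
  have hba : (b : H) * a * (b : H)⁻¹ = (a : H)⁻¹ := by simpa using congrArg Subtype.val h2
  refine ⟨m, a, b, a.2, b.2, fun h => hb ((hmem b).1 h), hz, ?_, fun u hu hn => ?_⟩
  · refine Eq.trans ?_ hi
    rw [relIndex]; congr 1; ext u; rw [mem_subgroupOf, hmem]
  · have : (⟨u, hu⟩ : (S : Subgroup H)) * b⁻¹ ∈ zpowers a := by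
      rw [mul_mem_iff_of_index_two hi]
      simp only [inv_mem_iff, hb, iff_false]
      exact fun h => hn ((hmem _).2 h)
    obtain ⟨n, e⟩ := (hmem _).2 this
    have e' : u = (a : H) ^ n * b := by
      simp only [coe_mul, InvMemClass.coe_inv] at e; rw [e]; simp
    have h3 : (b : H) * (a : H) ^ n * (b : H)⁻¹ = ((a : H) ^ n)⁻¹ := by
      rw [← conj_zpow, hba, inv_zpow]
    subst e'
    constructor
    · calc _ = (a : H) ^ n * ((b : H) * (a : H) ^ n * (b : H)⁻¹) * (b * b) := by group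
        _ = z := by rw [h3, hb2]; simp
    · calc _ = (a : H) ^ n * ((b : H) * a * (b : H)⁻¹) * ((a : H) ^ n)⁻¹ := by group
        _ = _ := by rw [hba]; group

theorem exists_sylow {y : H} (hy : P2 y) : ∃ S : Sylow 2 H, y ∈ (S : Subgroup H) :=
  let ⟨S, hS⟩ := hy.isPGroup.exists_le_sylow; ⟨S, hS (mem_zpowers y)⟩

omit [Finite H] in
theorem conj_of_mem_zpowers {g u y : H} (h : u * g * u⁻¹ = g⁻¹) (hy : y ∈ zpowers g) :
    u * y * u⁻¹ = y⁻¹ := by
  obtain ⟨n, rfl⟩ := hy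
  change u * g ^ n * u⁻¹ = (g ^ n)⁻¹
  rw [← conj_zpow, h, inv_zpow]

omit [Finite H] in
theorem comm_of_mem_zpowers {g x y : H} (hx : x ∈ zpowers g) (hy : y ∈ zpowers g) :
    x * y = y * x := by
  obtain ⟨n, rfl⟩ := hx
  obtain ⟨m, rfl⟩ := hy
  exact (Commute.zpow_zpow_self g n m).eq

omit [Finite H] in
theorem inv_symm (hU : UI z) {u v : H} (hu : u * u = z) (hv : v * v = z)
    (h : v * u * v⁻¹ = u⁻¹) : u * v * u⁻¹ = v⁻¹ := by
  have h1 : v * u = u⁻¹ * v := mul_inv_eq_iff_eq_mul.1 h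
  calc u * v * u⁻¹ = u * (v * u) * (u * u)⁻¹ := by group
    _ = v * z⁻¹ := by rw [h1, hu]; group
    _ = v⁻¹ := by rw [← hv]; group

/-- every `2`-element of order at least `4` is inverted by an element of order `4` -/
theorem exists_inverting (hU : UI z) (hp : pResidual 2 H = ⊤) {y : H} (hy : P2 y) :
    ∃ w : H, w * w = z ∧ w * y * w⁻¹ = y⁻¹ := by
  obtain ⟨S, hS⟩ := exists_sylow hy
  obtain ⟨m, g, b, hg, hb, hb', hz, -, h⟩ := hU.syl hp S
  by_cases hm : y ∈ zpowers g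
  · exact ⟨b, (h b hb hb').1, conj_of_mem_zpowers (h b hb hb').2 hm⟩
  · exact ⟨_, hz, hU.inv_symm hz (h y hS hm).1
      (conj_of_mem_zpowers (h y hS hm).2 (pow_mem (mem_zpowers g) _))⟩

theorem exists_q8 (hU : UI z) (hp : pResidual 2 H = ⊤) :
    ∃ u v : H, u * u = z ∧ v * v = z ∧ v * u * v⁻¹ = u⁻¹ := by
  obtain ⟨S⟩ : Nonempty (Sylow 2 H) := inferInstance
  obtain ⟨m, g, b, hg, hb, hb', hz, -, h⟩ := hU.syl hp S
  exact ⟨_, b, hz, (h b hb hb').1, conj_of_mem_zpowers (h b hb hb').2 (pow_mem (mem_zpowers g) _)⟩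

/-- all elements of order `4` are conjugate -/
theorem exists_conj (hU : UI z) (hp : pResidual 2 H = ⊤) {u v : H} (hu : u * u = z)
    (hv : v * v = z) : ∃ x : H, x * u * x⁻¹ = v := by
  obtain ⟨S⟩ : Nonempty (Sylow 2 H) := inferInstance
  obtain ⟨m, g, b, hg, hb, hb', hz, hi, h⟩ := hU.syl hp S
  have key : ∀ u : H, u * u = z → ∃ x : H, x * u * x⁻¹ = g ^ 2 ^ m := by
    intro u hu
    have hu2 : P2 u := .of_mul_self (hu ▸ .of_sq hU.sq)
    obtain ⟨x, hx⟩ : ∃ x : H, x⁻¹ * u * x ∈ zpowers g := by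
      by_contra hn
      push Not at hn
      refine not_mem_pResidual_two_of_parity (sylow_two_index_odd S) hi u (fun k x _ => ?_)
        (hp ▸ mem_top u)
      have e : x⁻¹ * u ^ k * x = (x⁻¹ * u * x) ^ k := by
        simpa using (conj_pow (a := x⁻¹) (b := u) (i := k)).symm
      rw [e]
      refine ⟨fun hk => ?_, fun ⟨j, hj⟩ => ?_⟩
      · by_contra ho
        exact hn x ((hu2.conj' x).mem_of_pow (Nat.not_even_iff_odd.1 ho) hk)
      · have : (x⁻¹ * u * x) ^ 2 = z := by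
          rw [_root_.sq, show x⁻¹ * u * x * (x⁻¹ * u * x) = x⁻¹ * (u * u) * x by group, hu,
            hU.comm x⁻¹]; simp
        rw [hj, ← two_mul, pow_mul, this, ← hz]
        exact pow_mem (mul_mem (pow_mem (mem_zpowers g) _) (pow_mem (mem_zpowers g) _)) _
    have h2 : x⁻¹ * u * x * (x⁻¹ * u * x) = z := by
      rw [show x⁻¹ * u * x * (x⁻¹ * u * x) = x⁻¹ * (u * u) * x by group, hu, hU.comm x⁻¹]; simp
    rcases hU.eq_or hz h2 (comm_of_mem_zpowers (pow_mem (mem_zpowers g) _) hx) with e | e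
    · exact ⟨x⁻¹, by simpa using e⟩
    · refine ⟨b * x⁻¹, ?_⟩
      have := conj_of_mem_zpowers (h b hb hb').2 hx
      rw [← inv_inv (g ^ 2 ^ m), ← e, ← this]; group
  obtain ⟨x, hx⟩ := key u hu
  obtain ⟨y, hy⟩ := key v hv
  refine ⟨y⁻¹ * x, ?_⟩
  rw [show y⁻¹ * x * u * (y⁻¹ * x)⁻¹ = y⁻¹ * (x * u * x⁻¹) * y by group, hx, ← hy]; group

omit [Finite H] in
theorem mem_normalizer_zpowers {u s : H} (h : s * u * s⁻¹ = u ∨ s * u * s⁻¹ = u⁻¹) :
    s ∈ normalizer ((zpowers u : Subgroup H) : Set H) := by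
  have key : ∀ s : H, s * u * s⁻¹ = u ∨ s * u * s⁻¹ = u⁻¹ → ∀ x ∈ zpowers u,
      s * x * s⁻¹ ∈ zpowers u := by
    rintro s hs _ ⟨n, rfl⟩
    change s * u ^ n * s⁻¹ ∈ _
    rw [← conj_zpow]
    rcases hs with e | e <;> rw [e]
    · exact zpow_mem (mem_zpowers u) _
    · exact zpow_mem (inv_mem (mem_zpowers u)) _
  refine mem_normalizer_iff.2 fun x => ⟨key s h x, fun hx => ?_⟩
  have := key s⁻¹ (h.imp cj_symm (fun e => by simpa using cj_inv (cj_symm e))) _ hx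
  simpa [mul_assoc] using this

omit [Finite H] in
theorem conj_of_mem_normalizer (hU : UI z) {u n : H} (hu : u * u = z)
    (hn : n ∈ normalizer ((zpowers u : Subgroup H) : Set H)) :
    n * u * n⁻¹ = u ∨ n * u * n⁻¹ = u⁻¹ :=
  hU.eq_or hu (hU.cj_sq hu n) (comm_of_mem_zpowers (mem_zpowers u)
      ((mem_normalizer_iff.1 hn u).1 (mem_zpowers u)))

/-- either all `2`-elements have order at most `4`, or there are swapping elements -/
theorem swap_or (hU : UI z) (hp : pResidual 2 H = ⊤) :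
    (∀ s : H, P2 s → s * s = 1 ∨ s * s = z) ∨
    ∀ u v : H, u * u = z → v * v = z → v * u * v⁻¹ = u⁻¹ →
      ∃ t : H, t * u * t⁻¹ = u ∧ (t * v * t⁻¹ = v * u ∨ t * v * t⁻¹ = v * u⁻¹) := by
  obtain ⟨S⟩ : Nonempty (Sylow 2 H) := inferInstance
  obtain ⟨m, g, b, hg, hb, hb', hz, hi, h⟩ := hU.syl hp S
  have hS := IsSylowIn.of_sylow_top S
  rcases m with _ | m
  · left
    intro s hs
    obtain ⟨k, -, hk⟩ := hS.exists_conj_le hs.isPGroup le_top
    have h1 : k * s * k⁻¹ ∈ (S : Subgroup H) := hk ⟨s, mem_zpowers s, rfl⟩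
    have h2 : k * s * k⁻¹ * (k * s * k⁻¹) = 1 ∨ k * s * k⁻¹ * (k * s * k⁻¹) = z := by
      by_cases hm : k * s * k⁻¹ ∈ zpowers g
      · obtain ⟨n, e⟩ := hm
        refine hU.uniq _ ?_
        simp only [pow_zero, pow_one] at hz
        rw [← e]
        calc g ^ n * g ^ n * (g ^ n * g ^ n) = (g * g * (g * g)) ^ n := by
              have cg := Commute.refl g
              rw [((cg.mul_left cg).mul_right (cg.mul_left cg)).mul_zpow, cg.mul_zpow]
          _ = 1 := by rw [hz, hU.sq, one_zpow]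
      · exact Or.inr (h _ h1 hm).1
    rw [show k * s * k⁻¹ * (k * s * k⁻¹) = k * (s * s) * k⁻¹ by group] at h2
    refine h2.imp (fun e => by simpa using e) fun e => ?_
    rw [mul_inv_eq_iff_eq_mul, ← hU.comm] at e
    exact mul_left_cancel e
  right
  obtain ⟨c, hc⟩ : ∃ c, c = g ^ 2 ^ (m + 1) := ⟨_, rfl⟩
  rw [← hc] at hz
  have hcg : c ∈ zpowers g := hc ▸ pow_mem (mem_zpowers g) _
  have key : ∀ v : H, v * v = z → v * c * v⁻¹ = c⁻¹ →
      ∃ t : H, t * c * t⁻¹ = c ∧ (t * v * t⁻¹ = v * c ∨ t * v * t⁻¹ = v * c⁻¹) := by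
    intro v hv hvc
    have hSN : (S : Subgroup H) ≤ normalizer ((zpowers c : Subgroup H) : Set H) := fun s hs => by
      refine mem_normalizer_zpowers ?_
      by_cases hm : s ∈ zpowers g
      · left; rw [comm_of_mem_zpowers hm hcg]; simp
      · exact Or.inr (conj_of_mem_zpowers (h s hs hm).2 hcg)
    have hv2 : P2 v := .of_mul_self (hv ▸ .of_sq hU.sq)
    obtain ⟨n, hn, hk⟩ := (IsSylowIn.of_sylow_le S hSN).exists_conj_le hv2.isPGroup
      (zpowers_le.2 (mem_normalizer_zpowers (Or.inr hvc)))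
    have h1 : n * v * n⁻¹ ∈ (S : Subgroup H) := hk ⟨v, mem_zpowers v, rfl⟩
    have hn' := hU.conj_of_mem_normalizer hz (inv_mem hn)
    rw [inv_inv] at hn'
    have h2 : n * v * n⁻¹ ∉ zpowers g := fun hm => by
      have e := comm_of_mem_zpowers hm hcg
      have e2 : v * (n⁻¹ * c * n) * v⁻¹ = n⁻¹ * c * n := by
        calc _ = n⁻¹ * (n * v * n⁻¹ * c) * n * v⁻¹ := by group
          _ = _ := by rw [e]; group
      rcases hn' with e3 | e3 <;> rw [e3] at e2
      · exact hU.ne_inv hz (e2.symm.trans hvc)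
      · exact hU.ne_inv hz ((cj_inv' e2).symm.trans hvc)
    obtain ⟨t, ht⟩ : ∃ t, t = g ^ 2 ^ m := ⟨_, rfl⟩
    have htg : t ∈ zpowers g := ht ▸ pow_mem (mem_zpowers g) _
    have htt : t * t = c := by rw [ht, hc, ← pow_add, ← two_mul, pow_succ']
    have h3 := conj_of_mem_zpowers (h _ h1 h2).2 htg
    have h4 : n⁻¹ * t * n * v * (n⁻¹ * t * n)⁻¹ = v * (n⁻¹ * c * n)⁻¹ := by
      calc _ = v * n⁻¹ * ((n * v * n⁻¹)⁻¹ * t * (n * v * n⁻¹)) * t⁻¹ * n := by group
        _ = v * n⁻¹ * t⁻¹ * t⁻¹ * n := by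
          have := cj_inv (cj_symm h3)
          rw [inv_inv, inv_inv] at this
          rw [this]
        _ = _ := by rw [← htt]; group
    have h5 : n⁻¹ * t * n * (n⁻¹ * c * n) * (n⁻¹ * t * n)⁻¹ = n⁻¹ * c * n := by
      rw [← htt]; group
    refine ⟨n⁻¹ * t * n, ?_, ?_⟩
    · rcases hn' with e | e <;> rw [e] at h5
      · exact h5
      · exact cj_inv' h5
    · rcases hn' with e | e <;> rw [e] at h4
      · exact Or.inr h4
      · exact Or.inl (by simpa using h4)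
  intro u v hu hv huv
  obtain ⟨x, hx⟩ := hU.exists_conj hp hu hz
  obtain ⟨t, h1, h2⟩ := key (x * v * x⁻¹) (hU.cj_sq hv x) (by
    rw [← hx, show x * v * x⁻¹ * (x * u * x⁻¹) * (x * v * x⁻¹)⁻¹ = x * (v * u * v⁻¹) * x⁻¹ by group,
      huv]; group)
  subst hx
  refine ⟨x⁻¹ * t * x, ?_, ?_⟩
  · calc _ = x⁻¹ * (t * (x * u * x⁻¹) * t⁻¹) * x := by group
      _ = _ := by rw [h1]; group
  · rw [show x⁻¹ * t * x * v * (x⁻¹ * t * x)⁻¹ = x⁻¹ * (t * (x * v * x⁻¹) * t⁻¹) * x by group]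
    refine h2.imp (fun e => ?_) (fun e => ?_) <;> rw [e] <;> group

/-- the three cyclic subgroups of order `4` of a quaternion subgroup are permuted cyclically -/
theorem exists_cycle (hU : UI z) (hp : pResidual 2 H = ⊤) {k x : H} (hk : k * k = z)
    (hx : x * x = z) (hkx : x * k * x⁻¹ = k⁻¹) :
    ∃ h : H, (h * k * h⁻¹ = x ∨ h * k * h⁻¹ = x * z) ∧
      (h * (k * x) * h⁻¹ = k ∨ h * (k * x) * h⁻¹ = k * z) := by
  have hxk := hU.inv_symm hk hx hkx
  have ik := hU.inv_eq hk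
  have ix := hU.inv_eq hx
  have c : x * k = k * x * z := by
    rw [mul_inv_eq_iff_eq_mul.1 hkx, ik, mul_assoc, ← hU.comm, mul_assoc]
  have c1 : ∀ w, x * (k * w) = k * (x * (z * w)) := fun w => by
    rw [← mul_assoc, c]; simp only [mul_assoc]
  have c2 : ∀ w, k * (k * w) = z * w := fun w => by rw [← mul_assoc, hk]
  have c3 : ∀ w, x * (x * w) = z * w := fun w => by rw [← mul_assoc, hx]
  have c4 : ∀ w, z * (z * w) = w := fun w => by rw [← mul_assoc, hU.sq, one_mul]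
  have c5 : ∀ w, z * (k * w) = k * (z * w) := fun w => by rw [← mul_assoc, ← hU.comm, mul_assoc]
  have c6 : ∀ w, z * (x * w) = x * (z * w) := fun w => by rw [← mul_assoc, ← hU.comm, mul_assoc]
  have c7 : z * k = k * z := (hU.comm k).symm
  have c8 : z * x = x * z := (hU.comm x).symm
  have c9 := hU.sq
  have iz : z⁻¹ = z := inv_eq_of_mul_eq_one_right c9
  have hkx2 : k * x * (k * x) = z := by
    simp only [mul_assoc, c, c1, c2, c3, c4, c5, c6, c7, c8, c9, hk, hx, mul_one]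
  have cz : ∀ h : H, h * z * h⁻¹ = z := fun h => cj_comm.2 (hU.comm h)
  have cm : ∀ h a b : H, h * (a * b) * h⁻¹ = h * a * h⁻¹ * (h * b * h⁻¹) := fun h a b => by group
  rcases hU.swap_or hp with h4 | hs
  swap
  · obtain ⟨t, h1, h2⟩ := hs (k * x) k hkx2 hk (by
      simp only [mul_inv_rev, ik, ix, iz, mul_assoc, c, c1, c2, c3, c4, c5, c6, c7, c8, c9, hk, hx])
    obtain ⟨t', h3, h4⟩ := hs x k hx hk hxk
    have cc : ∀ a : H, t' * t * a * (t' * t)⁻¹ = t' * (t * a * t⁻¹) * t'⁻¹ := fun a => by group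
    refine ⟨t' * t, ?_, ?_⟩
    · rw [cc]
      rcases h2 with e | e
      · right
        rw [e, show k * (k * x) = x * z by simp only [c2, c8], cm, h3, cz]
      · left
        rw [e, show k * (k * x)⁻¹ = x by
          simp only [mul_inv_rev, ik, ix, iz, mul_assoc, c, c1, c2, c3, c4, c5, c6, c7, c8, c9, hk,
            hx, mul_one], h3]
    · rw [cc, h1, cm, h3]
      rcases h4 with e | e <;> rw [e]
      · right; rw [mul_assoc, hx]
      · left; simp
  have hP : ∀ P : Subgroup H, IsPGroup 2 P → ∀ s ∈ P, ∀ t ∈ P,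
      s * t * s⁻¹ = t ∨ s * t * s⁻¹ = t * z := by
    intro P hP s hs t ht
    have e : s * t * s⁻¹ = (s * t * (s * t)) * (t⁻¹ * (s * s)⁻¹) := by group
    have e' : t⁻¹ = t * (t * t)⁻¹ := by group
    have d1 : z * t = t * z := (hU.comm t).symm
    have d2 : ∀ w, z * (t * w) = t * (z * w) := fun w => by rw [← mul_assoc, d1, mul_assoc]
    rw [e, e']
    rcases h4 _ (.of_mem hP hs) with e1 | e1 <;> rcases h4 _ (.of_mem hP ht) with e2 | e2 <;>
      rcases h4 _ (.of_mem hP (mul_mem hs ht)) with e3 | e3 <;> rw [e1, e2, e3] <;>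
      simp [iz, mul_assoc, c9, c4, d1, d2]
  have k2 : P2 k := .of_mul_self (hk ▸ .of_sq hU.sq)
  have x2 : P2 x := .of_mul_self (hx ▸ .of_sq hU.sq)
  obtain ⟨P, hPs, hle⟩ := exists_isSylowIn_ge (K := ⊤) (IsPGroup.to_sup_of_normal_left'
    k2.isPGroup x2.isPGroup (zpowers_le.2 (mem_normalizer_zpowers (Or.inr hkx)))) le_top
  have hkP : k ∈ P := hle (mem_sup_left (mem_zpowers k))
  have hxP : x ∈ P := hle (mem_sup_right (mem_zpowers x))
  have hN : ∀ P : Subgroup H, IsPGroup 2 P → x ∈ P →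
      P ≤ normalizer ((zpowers x : Subgroup H) : Set H) := fun P h hx s hs =>
    mem_normalizer_zpowers ((hP P h s hs x hx).imp id fun e => e.trans ix.symm)
  obtain ⟨g, hg⟩ := hU.exists_conj hp hk hx
  have hP' := hPs.conj_of_mem_normalizer (g := g) (by rw [normalizer_eq_top]; trivial)
  obtain ⟨n, hn, e⟩ := (hP'.mono (hN _ hP'.isPGroup ⟨k, hkP, hg⟩) le_top).exists_conj
    (hPs.mono (hN _ hPs.isPGroup hxP) le_top)
  obtain ⟨h, hh⟩ : ∃ h, h = n * g := ⟨_, rfl⟩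
  have hhP : h ∈ normalizer (P : Set H) := by
    refine mem_normalizer_of_map_conj_eq ?_
    rw [hh, map_conj_mul, e]
  have h1 : h * k * h⁻¹ = x ∨ h * k * h⁻¹ = x * z := by
    rw [hh, show n * g * k * (n * g)⁻¹ = n * (g * k * g⁻¹) * n⁻¹ by group, hg, ← ix]
    exact hU.conj_of_mem_normalizer hx hn
  refine ⟨h, h1, ?_⟩
  obtain ⟨y, hy⟩ : ∃ y, y = h * x * h⁻¹ := ⟨_, rfl⟩
  have hyP : y ∈ P := hy ▸ (mem_normalizer_iff.1 hhP x).1 hxP
  have hyx : y * x * y⁻¹ = x⁻¹ := by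
    have e1 : y * (h * k * h⁻¹) * y⁻¹ = (h * k * h⁻¹)⁻¹ := by
      rw [hy, ← cj_inv (rfl : h * k * h⁻¹ = _), ← hkx]; group
    rcases h1 with e2 | e2 <;> rw [e2] at e1
    · exact e1
    · rw [← ix] at e1; exact cj_inv' e1
  have hc : x * (k * y) = k * y * x := by
    rw [eq_comm, ← cj_comm, show k * y * x * (k * y)⁻¹ = k * (y * x * y⁻¹) * k⁻¹ by group, hyx,
      cj_inv hxk, inv_inv]
  rcases h4 _ (.of_mem hPs.isPGroup (mul_mem hkP hyP)) with e1 | e1
  · exfalso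
    have e2 : h * x * h⁻¹ = k ∨ h * x * h⁻¹ = k * z := by
      rw [← hy]
      rcases hU.uniq _ e1 with e3 | e3
      · right; rw [← ik]; exact eq_inv_of_mul_eq_one_right e3
      · left; exact mul_left_cancel (e3.trans hk.symm)
    have e3 : ∀ j : ℕ, h ^ (2 * j + 1) * k * (h ^ (2 * j + 1))⁻¹ = x ∨
        h ^ (2 * j + 1) * k * (h ^ (2 * j + 1))⁻¹ = x * z := by
      intro j
      induction j with
      | zero => simpa using h1
      | succ j ih =>
        rw [show h ^ (2 * (j + 1) + 1) * k * (h ^ (2 * (j + 1) + 1))⁻¹ =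
          h * (h * (h ^ (2 * j + 1) * k * (h ^ (2 * j + 1))⁻¹) * h⁻¹) * h⁻¹ by group]
        rcases ih with e | e <;> rcases e2 with e2 | e2 <;> rcases h1 with h1 | h1 <;>
          simp only [e, cm _ _ z, e2, h1, cz] <;> simp [mul_assoc, c9]
    obtain ⟨_, ⟨j, rfl⟩, h2⟩ := exists_odd_pow h
    have h3 : h ^ (2 * j + 1) ∈ P := hPs.le_of_le_normalizer h2.isPGroup le_top
      (zpowers_le.2 (pow_mem hhP _)) (mem_zpowers _)
    have h5 : x * k = k * x := by
      rcases hP P hPs.isPGroup _ h3 k hkP with e4 | e4 <;> rcases e3 j with e5 | e5 <;>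
        rw [e4] at e5
      · rw [e5]
      · rw [e5, ← mul_assoc, mul_assoc x z, c8, mul_assoc]
      · rw [← e5, ← mul_assoc, mul_assoc k z, c7, mul_assoc]
      · rw [mul_right_cancel e5]
    exact hU.ne (by rw [h5] at c; simpa using c)
  · rw [cm, ← hy]
    have e2 : y = k⁻¹ * (k * y) := by group
    rcases hU.eq_or hx e1 hc with e3 | e3 <;> rcases h1 with h1 | h1 <;> rw [h1, e2, e3] <;>
      simp [ik, ix, mul_assoc, c, c1, c2, c3, c4, c5, c6, c7, c8, c9, hk, hx]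

end UI

end Cfsg.Lib.JK
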