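import Cfsg.Agent.Lib.JK.Glob

/-! The involution `a` splits over two `2`-components of `C(b)`. -/

set_option autoImplicit false

namespace Cfsg.Lib.JK
open Subgroup

variable {G : Type*} [Group G] [Finite G]

theorem QC.cent_of_not_norm {a g : G} {J : Subgroup G} (h : QC a J) (hg : g ∈ C a)
    (hn : g ∉ normalizer (J : Set G)) {u : Qt a} (hu : u ∈ bar a J) :
    q a g * u * (q a g)⁻¹ ∈ centralizer (bar a J : Set (Qt a)) :=
  h.cu.le_cent (h.cu.conj _) (fun e => hn ((h.norm_iff hg).1 (cj_eq_iff.1 e))) (cj_mem hu _)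

structure Sp (b a : G) (K K' : Subgroup G) (k k' : G) : Prop where
  hK : QC b K
  hK' : QC b K'
  ne : K' ≠ K
  m : k ∈ K
  m' : k' ∈ K'
  k2 : k * k = b
  k2' : k' * k' = b
  ck : k ∈ C a
  ck' : k' ∈ C a
  e : q b a = q b k * q b k'

namespace Sp
variable {a b k k' : G} {K K' : Subgroup G}

omit [Finite G] in
theorem ab (h : Sp b a K K' k k') : a ∈ C b := C_symm (h.k2 ▸ mul_mem h.ck h.ck)

omit [Finite G] in
theorem kb (h : Sp b a K K' k k') : k ∈ C b := h.hK.le h.m

omit [Finite G] in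
theorem kb' (h : Sp b a K K' k k') : k' ∈ C b := h.hK'.le h.m'

omit [Finite G] in
theorem qm (h : Sp b a K K' k k') : q b k ∈ bar b K := q_mem h.kb h.m

omit [Finite G] in
theorem qm' (h : Sp b a K K' k k') : q b k' ∈ bar b K' := q_mem h.kb' h.m'

omit [Finite G] in
theorem q2 (h : Sp b a K K' k k') : q b k * q b k = q b b := q_sq h.kb h.k2

omit [Finite G] in
theorem q2' (h : Sp b a K K' k k') : q b k' * q b k' = q b b := q_sq h.kb' h.k2'

theorem bne (h : Sp b a K K' k k') : bar b K' ≠ bar b K := h.hK'.bar_ne h.hK h.ne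

theorem comm (h : Sp b a K K' k k') {x y : Qt b} (hx : x ∈ bar b K) (hy : y ∈ bar b K') :
    x * y = y * x := h.hK.cu.comm h.hK'.cu h.bne hx hy

theorem symm (h : Sp b a K K' k k') : Sp b a K' K k' k :=
  ⟨h.hK', h.hK, h.ne.symm, h.m', h.m, h.k2', h.k2, h.ck', h.ck, h.e.trans (h.comm h.qm h.qm')⟩

theorem conj (h : Sp b a K K' k k') {g a' b' : G} (ha : g * a * g⁻¹ = a')
    (hb : g * b * g⁻¹ = b') : Sp b' a' (cj g K) (cj g K') (g * k * g⁻¹) (g * k' * g⁻¹) := by
  subst ha hb
  refine ⟨h.hK.conj g, h.hK'.conj g, fun e => h.ne (cj_inj e), cj_mem h.m g, cj_mem h.m' g,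
    by rw [← h.k2]; group, by rw [← h.k2']; group, C_cj g h.ck, C_cj g h.ck', ?_⟩
  rw [← q_mul (C_cj g h.kb) (C_cj g h.kb'),
    show g * k * g⁻¹ * (g * k' * g⁻¹) = g * (k * k') * g⁻¹ by group]
  exact q_cj g h.ab (mul_mem h.kb h.kb') (h.e.trans (q_mul h.kb h.kb').symm)

theorem not_cent (h : Sp b a K K' k k') : q b a ∉ centralizer (bar b K : Set (Qt b)) := fun hc => by
  refine h.hK.cu.not_cent h.qm h.q2 ?_
  rw [show q b k = q b a * (q b k')⁻¹ by rw [h.e]; group]
  exact mul_mem hc (inv_mem (h.hK.cu.le_cent h.hK'.cu h.bne h.qm'))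

theorem eq_or (h : Sp b a K K' k k') {I : Subgroup G} (hI : QC b I)
    (hc : q b a ∉ centralizer (bar b I : Set (Qt b))) : I = K ∨ I = K' := by
  by_contra hn
  push Not at hn
  refine hc (h.e ▸ mul_mem (hI.cu.le_cent h.hK.cu (h.hK.bar_ne hI hn.1.symm) h.qm)
    (hI.cu.le_cent h.hK'.cu (h.hK'.bar_ne hI hn.2.symm) h.qm'))

theorem cj_or (h : Sp b a K K' k k') {g : G} (ha : g ∈ C a) (hb : g ∈ C b) :
    cj g K = K ∨ cj g K = K' :=
  h.eq_or (h.hK.conj' hb) (h.hK.not_cent_cj h.ab (cj_comm.2 (mem_C.1 hb)) (cj_comm.2 (mem_C.1 ha))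
    h.not_cent)

theorem norm' (h : Sp b a K K' k k') {g : G} (ha : g ∈ C a) (hb : g ∈ C b)
    (hn : g ∈ normalizer (K : Set G)) : g ∈ normalizer (K' : Set G) :=
  cj_eq_iff.1 ((h.symm.cj_or ha hb).resolve_right fun e =>
    h.ne (cj_inj (e.trans (cj_eq_iff.2 hn).symm)))

theorem swap (h : Sp b a K K' k k') {g : G} (ha : g ∈ C a) (hb : g ∈ C b)
    (hn : g ∉ normalizer (K : Set G)) : cj g K = K' ∧ cj g K' = K :=
  ⟨(h.cj_or ha hb).resolve_left fun e => hn (cj_eq_iff.1 e),
    (h.symm.cj_or ha hb).resolve_left fun e => hn (h.symm.norm' ha hb (cj_eq_iff.1 e))⟩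

theorem mul_norm (h : Sp b a K K' k k') {g g' : G} (ha : g ∈ C a) (hb : g ∈ C b)
    (hn : g ∉ normalizer (K : Set G)) (ha' : g' ∈ C a) (hb' : g' ∈ C b)
    (hn' : g' ∉ normalizer (K : Set G)) : g * g' ∈ normalizer (K : Set G) := by
  rw [← cj_eq_iff, cj_mul, (h.swap ha' hb' hn').1, (h.swap ha hb hn).2]

theorem odd_norm (h : Sp b a K K' k k') {g : G} (ha : g ∈ C a) (hb : g ∈ C b)
    (ho : Odd (orderOf g)) : g ∈ normalizer (K : Set G) := by
  by_contra hn
  exact hn (mem_of_sq_mem_of_odd ho (h.mul_norm ha hb hn ha hb hn))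

theorem a_norm (h : Sp b a K K' k k') : a ∈ normalizer (K : Set G) :=
  (h.hK.norm_iff h.ab).1 (h.e ▸ mul_mem (le_normalizer h.qm)
    (centralizer_le_normalizer _ (h.hK.cu.le_cent h.hK'.cu h.bne h.qm')))

theorem comm_k (h : Sp b a K K' k k') {x : Qt b} (hx : x ∈ bar b K)
    (c : x * q b a = q b a * x) : q b k * x = x * q b k := by
  rw [h.e, mul_assoc, ← h.comm hx h.qm', ← mul_assoc, ← mul_assoc] at c
  exact (mul_right_cancel c).symm

theorem eq_k (h : Sp b a K K' k k') {x : Qt b} (hx : x ∈ bar b K) (h2 : x * x = q b b)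
    (c : x * q b a = q b a * x) : x = q b k ∨ x = (q b k)⁻¹ :=
  h.hK.cu.eq_or h.qm hx h.q2 h2 (h.comm_k hx c)

omit [Finite G] in
theorem cj_comm_a (h : Sp b a K K' k k') {g : G} (ha : g ∈ C a) (hb : g ∈ C b) :
    q b g * q b k * (q b g)⁻¹ * q b a = q b a * (q b g * q b k * (q b g)⁻¹) := by
  have h1 := h.kb
  have h2 := h.ck
  have := q_comm (a := b) (x := g * k * g⁻¹) (by (repeat' first | assumption | exact C_self _ | apply mul_mem | apply inv_mem | apply pow_mem)) h.ab (mem_C.1 (by (repeat' first | assumption | exact C_self _ | apply mul_mem | apply inv_mem | apply pow_mem)))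
  simp (disch := (repeat' first | assumption | exact C_self _ | apply mul_mem | apply inv_mem | apply pow_mem)) only [q_mul, q_inv, q_pow] at this
  exact this

theorem act (h : Sp b a K K' k k') {g : G} (ha : g ∈ C a) (hb : g ∈ C b)
    (hn : g ∈ normalizer (K : Set G)) :
    q b g * q b k * (q b g)⁻¹ = q b k ∨ q b g * q b k * (q b g)⁻¹ = (q b k)⁻¹ :=
  h.eq_k (cj_mem_of_norm ((h.hK.norm_iff hb).2 hn) h.qm) (h.hK.cu.cj_sq h.q2 _) (h.cj_comm_a ha hb)

theorem act' (h : Sp b a K K' k k') {g : G} (ha : g ∈ C a) (hb : g ∈ C b)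
    (hn : g ∉ normalizer (K : Set G)) :
    q b g * q b k * (q b g)⁻¹ = q b k' ∨ q b g * q b k * (q b g)⁻¹ = (q b k')⁻¹ := by
  refine h.symm.eq_k ?_ (h.hK.cu.cj_sq h.q2 _) (h.cj_comm_a ha hb)
  rw [← (h.swap ha hb hn).1, bar_cj hb]
  exact cj_mem h.qm _

theorem odd_act (h : Sp b a K K' k k') {g : G} (ha : g ∈ C a) (hb : g ∈ C b)
    (ho : Odd (orderOf g)) : q b g * q b k * (q b g)⁻¹ = q b k := by
  refine (h.act ha hb (h.odd_norm ha hb ho)).elim id fun e => ?_
  refine cj_comm.2 (mem_C.1 (mem_of_sq_mem_of_odd (q_odd hb ho) (mem_C.2 (cj_comm.1 ?_))))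
  rw [show q b g * q b g * q b k * (q b g * q b g)⁻¹ = q b g * (q b g * q b k * (q b g)⁻¹) *
    (q b g)⁻¹ by group, e, cj_inv e, inv_inv]

/-- `a` is conjugate to `a b` -/
theorem exists_flip (h : Sp b a K K' k k') (a2 : a * a = 1) : ∃ w ∈ C b, w * a * w⁻¹ = a * b := by
  obtain ⟨w, hw, -, h1⟩ := h.hK.cu.exists_inverting h.qm (h.hK.cu.p2 h.q2)
  have hab := h.ab
  obtain ⟨x, hx, -, h2⟩ := lift1 (ξ := w) (e := a) (e' := a * b) hab (by (repeat' first | assumption | exact C_self _ | apply mul_mem | apply inv_mem | apply pow_mem)) a2 (by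
    rw [mul_assoc, ← mul_assoc b, ← mem_C.1 hab, mul_assoc, h.hK.sq, mul_one, a2]) (by
    simp (disch := (repeat' first | assumption | exact C_self _ | apply mul_mem | apply inv_mem | apply pow_mem)) only [q_mul, q_inv, q_pow]
    rw [h.e, ← mul_assoc, mul_assoc _ (q b k'), ← h.comm (inv_mem hw) h.qm', ← mul_assoc, h1,
      h.hK.cu.inv_eq h.q2, mul_assoc, mul_assoc, q_cen])
  exact ⟨x, hx, h2⟩

end Sp

section steps
variable {a b y : G} {J K : Subgroup G}

theorem stepB (hJ : QC a J) (hK : QC b K) (hy : y ∈ K) (hyy : y * y = b) (hya : y ∈ C a)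
    (hn : y ∉ normalizer (J : Set G)) : b ∈ normalizer (J : Set G) := by
  by_contra hbn
  have hb : b ∈ C a := hyy ▸ mul_mem hya hya
  obtain ⟨u, hu, -, -, u2, -⟩ := hJ.cu.exists_q8
  have hd := hJ.cu.diag (q_sq1 hb hK.sq) (fun e => hbn ((hJ.norm_iff hb).1 e)) hu
  have h1 := hJ.cent_of_not_norm hb hbn hu
  obtain ⟨d, hda, hdb, d2, e⟩ := liftc hb hK.sq ((hJ.cu.p2 u2).mul ((hJ.cu.p2 u2).conj _)
    (mem_cent.1 h1 u hu)) (mem_C.1 (map_subtype_le _ hd))
  have hdK := hK.norm_of_inL (bal hJ.sq hK.sq hb hda hdb d2 (e ▸ hd))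
  have hc : d * y * d⁻¹ * y⁻¹ ∈ K := mul_mem (cj_mem_of_norm hdK hy) (inv_mem hy)
  have h2 := hJ.cent_of_not_norm (g := y * b) (by (repeat' first | assumption | exact C_self _ | apply mul_mem | apply inv_mem | apply pow_mem)) (fun e => hn (by
    have : y * b = y⁻¹ := by
      rw [eq_inv_iff_mul_eq_one, mem_C.1 (hK.le hy), mul_assoc, hyy, hK.sq]
    rwa [this, inv_mem_iff] at e)) (inv_mem hu)
  have h3 := hJ.cent_of_not_norm hya hn (inv_mem hu)
  have e2 : q a (d * y * d⁻¹ * y⁻¹) = u * (q a b * u * (q a b)⁻¹ *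
      (q a (y * b) * u⁻¹ * (q a (y * b))⁻¹) * (q a y * u⁻¹ * (q a y)⁻¹)) := by
    simp (disch := (repeat' first | assumption | exact C_self _ | apply mul_mem | apply inv_mem | apply pow_mem)) only [q_mul, q_inv, q_pow]; rw [e]; group
  have h4 := mul_mem (mul_mem h1 h2) h3
  rcases hK.odd_or hc with ho | ⟨n, e3⟩
  · have := q_odd (a := a) (by (repeat' first | assumption | exact C_self _ | apply mul_mem | apply inv_mem | apply pow_mem)) ho
    rw [e2] at this
    rcases hJ.cu.odd_mul hu (hJ.cu.p2 u2) h4 this with rfl | rfl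
    · exact hJ.cu.ne (by simpa using u2.symm)
    · exact hJ.cu.ne (u2.symm.trans hJ.cu.sq)
  · refine hbn (e3 ▸ pow_mem ((hJ.norm_iff (by (repeat' first | assumption | exact C_self _ | apply mul_mem | apply inv_mem | apply pow_mem))).1 ?_) n)
    rw [e2]
    exact mul_mem (le_normalizer hu) (centralizer_le_normalizer _ h4)

theorem stepC (hJ : QC a J) (hK : QC b K) (hy : y ∈ K) (hb : b ∈ C a) (hya : y ∈ C a)
    (hn : y ∉ normalizer (J : Set G)) : q a b ∉ centralizer (bar a J : Set (Qt a)) := by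
  intro hc
  obtain ⟨u, hu, -, -, u2, -⟩ := hJ.cu.exists_q8
  obtain ⟨x, hxa, hxb, x2, e⟩ := liftc hb hK.sq (hJ.cu.p2 u2) (mem_cent.1 hc u hu)
  have hxK := hK.norm_of_inL (bal hJ.sq hK.sq hb hxa hxb x2 (e ▸ hJ.cu.le_pLayer hc hu))
  have hc' : x * y * x⁻¹ * y⁻¹ ∈ K := mul_mem (cj_mem_of_norm hxK hy) (inv_mem hy)
  have h3 := hJ.cent_of_not_norm hya hn (inv_mem hu)
  have e2 : q a (x * y * x⁻¹ * y⁻¹) = u * (q a y * u⁻¹ * (q a y)⁻¹) := by
    simp (disch := (repeat' first | assumption | exact C_self _ | apply mul_mem | apply inv_mem | apply pow_mem)) only [q_mul, q_inv, q_pow]; rw [e]; group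
  obtain ⟨r, hr⟩ : ∃ r, r = q a y * u⁻¹ * (q a y)⁻¹ := ⟨_, rfl⟩
  have r2 : r * r = q a a := by
    rw [hr]; refine hJ.cu.cj_sq ?_ _
    rw [← mul_inv_rev, u2, inv_eq_of_mul_eq_one_right hJ.cu.sq]
  rw [← hr] at h3 e2
  rcases hK.odd_or hc' with ho | ⟨n, e3⟩
  · have := q_odd (a := a) (by (repeat' first | assumption | exact C_self _ | apply mul_mem | apply inv_mem | apply pow_mem)) ho
    rw [e2] at this
    rcases hJ.cu.odd_mul hu (hJ.cu.p2 u2) h3 this with rfl | rfl
    · exact hJ.cu.ne (by simpa using u2.symm)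
    · exact hJ.cu.ne (u2.symm.trans hJ.cu.sq)
  · have e4 : u * r * (u * r) = 1 := by
      rw [mul_assoc, ← mul_assoc r, ← mem_cent.1 h3 u hu, mul_assoc, r2, ← mul_assoc, u2, hJ.cu.sq]
    have e5 : (u * r) ^ n = q a b := by rw [← e2, ← q_pow (by (repeat' first | assumption | exact C_self _ | apply mul_mem | apply inv_mem | apply pow_mem)), e3]
    rcases Nat.even_or_odd n with ⟨j, rfl⟩ | ho
    · rw [← two_mul, pow_mul, sq, e4, one_pow] at e5
      exact q_ne hb hK.sq hK.ne e5.symm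
    · rw [pow_odd_of_sq e4 ho] at e5
      refine hJ.cu.not_cent hu u2 ?_
      rw [show u = q a b * r⁻¹ by rw [← e5]; group]
      exact mul_mem hc (inv_mem h3)

/-- `b` is conjugate to `a b`, and `a` splits -/
theorem stepD (hJ : QC a J) (hK : QC b K) (hab : a ≠ b) (hy : y ∈ K) (y2 : P2 y) (hyy : y * y ≠ 1)
    (hya : y ∈ C a) (hn : y ∉ normalizer (J : Set G)) (hn2 : y * y ∈ normalizer (J : Set G)) :
    (∃ w ∈ C a, w * b * w⁻¹ = a * b) ∧ ∃ K' k', ∃ N : ℕ, Sp b a K K' (y ^ N) k' := by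
  obtain ⟨m, hm⟩ := hK.exists_pow (mul_mem hy hy) (y2.mul y2 rfl) hyy
  have hb : b ∈ C a := hm ▸ pow_mem (mul_mem hya hya) m
  have ha := C_symm hb
  have hyb := hK.le hy
  have ab2 : a * b * (a * b) = 1 := by
    rw [mul_assoc, ← mul_assoc b, mem_C.1 hb, mul_assoc, hK.sq, mul_one, hJ.sq]
  obtain ⟨w, hw, h1, h2⟩ := hJ.cu.exists_flip (t := q a (y * y)) (β := q a b)
    (q_p2 (by (repeat' first | assumption | exact C_self _ | apply mul_mem | apply inv_mem | apply pow_mem)) (y2.mul y2 rfl)) ((hJ.norm_iff (by (repeat' first | assumption | exact C_self _ | apply mul_mem | apply inv_mem | apply pow_mem))).2 hn2)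
    (by rw [← hm, q_pow (by (repeat' first | assumption | exact C_self _ | apply mul_mem | apply inv_mem | apply pow_mem))]; exact pow_mem (mem_zpowers _) m) (q_sq1 hb hK.sq)
    (stepC hJ hK hy hb hya hn)
  refine ⟨?_, ?_⟩
  · obtain ⟨x, hx, -, h⟩ := lift1 (ξ := w⁻¹) (e' := a * b) hb (by (repeat' first | assumption | exact C_self _ | apply mul_mem | apply inv_mem | apply pow_mem)) hK.sq ab2 (by
      simp (disch := (repeat' first | assumption | exact C_self _ | apply mul_mem | apply inv_mem | apply pow_mem)) only [q_mul, q_inv, q_pow]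
      calc _ = w⁻¹ * (q a b * w * (q a b)⁻¹) * q a b := by group
        _ = _ := by rw [h1]; group)
    exact ⟨x, hx, h⟩
  have h3 := hJ.cent_of_not_norm hya hn hw
  have h4 := mem_cent.1 h3 w hw
  have cyb := q_comm hya hb (mem_C.1 hyb)
  obtain ⟨v, hva, ev, hvb⟩ := lift1 (ξ := w * (q a y * w * (q a y)⁻¹)) hb hb hK.sq hK.sq (by
    refine cj_comm.2 (cj_comm.1 ?_).symm
    calc _ = q a b * w * (q a b)⁻¹ * ((q a b * q a y) * w * (q a b * q a y)⁻¹) := by group
      _ = w * q a a * (q a y * (q a b * w * (q a b)⁻¹) * (q a y)⁻¹) := by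
        rw [← h1, ← cyb]; group
      _ = w * (q a a * (q a y * w * (q a y)⁻¹) * (q a a)⁻¹) * (q a a * (q a y * q a a * (q a y)⁻¹)) := by
        rw [h1]; group
      _ = _ := by rw [cj_comm.2 (q_cen _), cj_comm.2 (q_cen _).symm, hJ.cu.sq, mul_one])
  replace hvb : v ∈ C b := mem_C.2 (cj_comm.1 hvb)
  obtain ⟨N, hN⟩ := hJ.cu.exists_pow (mul_mem (inv_mem hw) (cj_mem_of_norm
    ((hJ.norm_iff (g := y * y) (by (repeat' first | assumption | exact C_self _ | apply mul_mem | apply inv_mem | apply pow_mem))).2 hn2) hw)) h2 fun e => by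
      have h5 : q a (y * y) ∈ C w := mem_C.2 (cj_comm.1 (inv_mul_eq_one.1 e).symm)
      have h6 := pow_mem h5 m
      rw [← q_pow (by (repeat' first | assumption | exact C_self _ | apply mul_mem | apply inv_mem | apply pow_mem)), hm] at h6
      rw [cj_comm.2 (mem_C.1 h6)] at h1
      exact hJ.cu.ne (by simpa using h1)
  have e1 : q a ((v⁻¹ * y * v * y⁻¹) ^ N * a) = 1 := by
    have : q a (v⁻¹ * y * v * y⁻¹) = w⁻¹ * (q a (y * y) * w * (q a (y * y))⁻¹) := by
      simp (disch := (repeat' first | assumption | exact C_self _ | apply mul_mem | apply inv_mem | apply pow_mem)) only [q_mul, q_inv, q_pow]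
      rw [ev]
      calc _ = (w * (q a y * w * (q a y)⁻¹))⁻¹ * (q a y * w * (q a y)⁻¹) *
          (q a y * q a y * w * (q a y * q a y)⁻¹) := by group
        _ = _ := by rw [h4]; group
    rw [q_mul (by (repeat' first | assumption | exact C_self _ | apply mul_mem | apply inv_mem | apply pow_mem)) (by (repeat' first | assumption | exact C_self _ | apply mul_mem | apply inv_mem | apply pow_mem)), q_pow (by (repeat' first | assumption | exact C_self _ | apply mul_mem | apply inv_mem | apply pow_mem)), this, hN, hJ.cu.sq]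
  have ho := odd_of_q (by (repeat' first | assumption | exact C_self _ | apply mul_mem | apply inv_mem | apply pow_mem)) e1
  have hK' := hK.conj' (inv_mem hvb)
  have hy' : v⁻¹ * y * v ∈ cj v⁻¹ K := by simpa using cj_mem hy v⁻¹
  have hne : cj v⁻¹ K ≠ K := fun e => by
    rw [e] at hy'
    have h5 : (v⁻¹ * y * v * y⁻¹) ^ N ∈ K := pow_mem (mul_mem hy' (inv_mem hy)) N
    have h6 := pow_orderOf_eq_one ((v⁻¹ * y * v * y⁻¹) ^ N * a)
    rw [Commute.mul_pow (mem_C.1 (by (repeat' first | assumption | exact C_self _ | apply mul_mem | apply inv_mem | apply pow_mem))), pow_odd_of_sq hJ.sq ho,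
      mul_eq_one_iff_inv_eq] at h6
    rcases hK.uniq a (h6 ▸ inv_mem (pow_mem h5 _)) hJ.sq with e | e
    · exact hJ.ne e
    · exact hab e
  have hne' := hK'.bar_ne hK hne
  have m1 := q_mem hyb hy
  have m2 := q_mem (a := b) (by (repeat' first | assumption | exact C_self _ | apply mul_mem | apply inv_mem | apply pow_mem)) hy'
  have c1 := hK.cu.comm hK'.cu hne' m1 m2
  obtain ⟨s, hs⟩ : ∃ s, s = q b (v⁻¹ * y * v) := ⟨_, rfl⟩
  have s2 : P2 s := hs ▸ q_p2 (by (repeat' first | assumption | exact C_self _ | apply mul_mem | apply inv_mem | apply pow_mem)) (y2.conj' v)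
  have cs : s * q b a = q b a * s := hs ▸ q_comm (by (repeat' first | assumption | exact C_self _ | apply mul_mem | apply inv_mem | apply pow_mem)) ha (mem_C.1 (by (repeat' first | assumption | exact C_self _ | apply mul_mem | apply inv_mem | apply pow_mem)))
  have cy : q b y * q b a = q b a * q b y := q_comm hyb ha (mem_C.1 hya)
  rw [← hs] at m2 c1
  have c2 : Commute s (q b y)⁻¹ := (Commute.symm c1).inv_right
  have e2 : s ^ N * ((q b y) ^ N)⁻¹ * q b a = 1 := by
    have := q_odd (a := b) (by (repeat' first | assumption | exact C_self _ | apply mul_mem | apply inv_mem | apply pow_mem)) ho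
    rw [q_mul (by (repeat' first | assumption | exact C_self _ | apply mul_mem | apply inv_mem | apply pow_mem)) ha, q_pow (by (repeat' first | assumption | exact C_self _ | apply mul_mem | apply inv_mem | apply pow_mem)), q_mul (by (repeat' first | assumption | exact C_self _ | apply mul_mem | apply inv_mem | apply pow_mem)) (by (repeat' first | assumption | exact C_self _ | apply mul_mem | apply inv_mem | apply pow_mem)), ← hs, q_inv hyb] at this
    rw [← inv_pow, ← c2.mul_pow]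
    exact (((s2.mul (q_p2 hyb y2).inv c2).pow N).mul (.of_sq (q_sq1 ha hJ.sq))
      ((Commute.mul_left cs (Commute.inv_left cy)).pow_left N).eq).eq_one this
  have c3 : Commute (s ^ N) (q b y ^ N) := (Commute.symm c1).pow_pow N N
  have e3 : q b a = q b y ^ N * (s ^ N)⁻¹ := by
    rw [← inv_eq_of_mul_eq_one_right e2]; group
  have e4 : q b y ^ N * q b y ^ N = s ^ N * s ^ N := by
    have := q_sq1 ha hJ.sq
    rw [e3, mul_assoc, ← mul_assoc (s ^ N)⁻¹, c3.inv_left.eq, mul_assoc, ← mul_assoc,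
      ← mul_inv_rev, mul_inv_eq_one] at this
    exact this
  have e5 : q b y ^ N * q b y ^ N = q b b := by
    refine (hK.cu.inter hK'.cu hne' (mul_mem (pow_mem m1 N) (pow_mem m1 N))
      (e4 ▸ mul_mem (pow_mem m2 N) (pow_mem m2 N))).resolve_left fun e => ?_
    have h5 : s ^ N = (q b v)⁻¹ * q b y ^ N * q b v := by
      rw [hs]; simp (disch := (repeat' first | assumption | exact C_self _ | apply mul_mem | apply inv_mem | apply pow_mem)) only [q_mul, q_inv, q_pow]; simpa using conj_pow (a := (q b v)⁻¹) (b := q b y) (i := N)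
    refine q_ne ha hJ.sq hJ.ne ?_
    rw [e3, h5]
    rcases hK.cu.uniq _ (pow_mem m1 N) e with e | e <;> rw [e]
    · simp
    · rw [q_cen]; simp
  have e6 : y ^ N * y ^ N = b := sq_of_q (a := b) (by (repeat' first | assumption | exact C_self _ | apply mul_mem | apply inv_mem | apply pow_mem)) (C_self b) (y2.pow N) hK.sq (by (repeat' first | assumption | exact C_self _ | apply mul_mem | apply inv_mem | apply pow_mem))
    (by simp (disch := (repeat' first | assumption | exact C_self _ | apply mul_mem | apply inv_mem | apply pow_mem)) only [q_mul, q_inv, q_pow]; exact e5)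
  refine ⟨cj v⁻¹ K, ((v⁻¹ * y * v) ^ N)⁻¹, N, hK, hK', hne, pow_mem hy N, inv_mem (pow_mem hy' N), e6,
    ?_, by (repeat' first | assumption | exact C_self _ | apply mul_mem | apply inv_mem | apply pow_mem), by (repeat' first | assumption | exact C_self _ | apply mul_mem | apply inv_mem | apply pow_mem), by rw [q_inv (by (repeat' first | assumption | exact C_self _ | apply mul_mem | apply inv_mem | apply pow_mem)), q_pow (by (repeat' first | assumption | exact C_self _ | apply mul_mem | apply inv_mem | apply pow_mem)), q_pow (by (repeat' first | assumption | exact C_self _ | apply mul_mem | apply inv_mem | apply pow_mem)), ← hs, e3]⟩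
  have : (v⁻¹ * y * v) ^ N = v⁻¹ * y ^ N * v := by
    simpa using conj_pow (a := v⁻¹) (b := y) (i := N)
  rw [this, ← mul_inv_rev, show v⁻¹ * y ^ N * v * (v⁻¹ * y ^ N * v) = v⁻¹ * (y ^ N * y ^ N) * v by
    group, e6, mul_assoc, ← mem_C.1 hvb, inv_mul_cancel_left, inv_eq_of_mul_eq_one_right hK.sq]

end steps

end Cfsg.Lib.JK
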