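import Cfsg.Agent.Lib.JK.One

/-! Part (ii). -/

set_option autoImplicit false

namespace Cfsg.Lib.JK
open Subgroup
open scoped commutatorElement

theorem CU.proj {Q : Type*} [Group Q] [Finite Q] {I : Subgroup Q} {z : Q} (h : CU I z)
    {y y' r r' : Q} (hy : y ∈ I) (hy' : y' ∈ I) (hr : r ∈ centralizer (I : Set Q))
    (hr' : r' ∈ centralizer (I : Set Q)) (e : y * r = y' * r') : y = y' ∨ y = y' * z := by
  rcases h.cent (mul_mem (inv_mem hy') hy) (by
    rw [show y'⁻¹ * y = r' * r⁻¹ by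
      rw [inv_mul_eq_iff_eq_mul, ← mul_assoc, ← e]; group]
    exact mul_mem hr' (inv_mem hr)) with e1 | e1
  · exact Or.inl (inv_mul_eq_one.1 e1).symm
  · exact Or.inr (inv_mul_eq_iff_eq_mul.1 e1)

theorem CU.mul_mul {Q : Type*} [Group Q] {I : Subgroup Q} {y y' r r' : Q} (hy' : y' ∈ I)
    (hr : r ∈ centralizer (I : Set Q)) : y * r * (y' * r') = y * y' * (r * r') := by
  rw [mul_assoc, ← mul_assoc r, ← mem_cent.1 hr y' hy']; group

theorem CU.no_q8 {Q : Type*} [Group Q] [Finite Q] {I : Subgroup Q} {z : Q} (h : CU I z)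
    {x r k l : Q} (hx : x ∈ I) (x2 : x * x = z) (hr : r ∈ centralizer (I : Set Q))
    (hk : k ∈ layer Q) (hl : l ∈ layer Q) (k2 : k * k = x * r) (l2 : l * l = x * r)
    (hkl : l * k * l⁻¹ = k⁻¹) : False := by
  obtain ⟨y, hy, s, hs, rfl⟩ := h.inner hk
  obtain ⟨w, hw, t, ht, rfl⟩ := h.inner hl
  rw [CU.mul_mul hy hs] at k2
  rw [CU.mul_mul hw ht] at l2
  have e : w * y * w⁻¹ * y * (t * s * t⁻¹ * s) = 1 * 1 := by
    rw [← CU.mul_mul hy (by (repeat' first | assumption | exact C_self _ | apply mul_mem | apply inv_mem | apply pow_mem)), mul_one, mul_eq_one_iff_eq_inv, ← hkl, mul_inv_rev,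
      ← mem_cent.1 (inv_mem ht) _ (inv_mem hw), ← CU.mul_mul (inv_mem hw) (by (repeat' first | assumption | exact C_self _ | apply mul_mem | apply inv_mem | apply pow_mem)),
      ← CU.mul_mul hy ht]
  have h1 := h.proj (mul_mem hy hy) hx (mul_mem hs hs) hr k2
  have h2 := h.proj (mul_mem hw hw) hx (mul_mem ht ht) hr l2
  have h3 := h.proj (by (repeat' first | assumption | exact C_self _ | apply mul_mem | apply inv_mem | apply pow_mem)) (one_mem _) (by (repeat' first | assumption | exact C_self _ | apply mul_mem | apply inv_mem | apply pow_mem)) (one_mem _) e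
  have c1 : w * x = x * w := by
    rcases h2 with e | e
    · rw [← e]; group
    · rw [show x = w * w * z by rw [e, mul_assoc, h.sq, mul_one], mul_assoc _ z, ← h.cen]; group
  have c2 : w * (y * y) * w⁻¹ = y * y := by
    rcases h1 with e | e <;> rw [e, cj_comm]
    · exact c1
    · rw [← mul_assoc, c1, mul_assoc, h.cen, mul_assoc]
  have c3 : w * (y * y) * w⁻¹ = (y * y)⁻¹ := by
    rw [show w * (y * y) * w⁻¹ = w * y * w⁻¹ * (w * y * w⁻¹) by group]
    rcases h3 with e | e <;> rw [← eq_mul_inv_iff_mul_eq] at e <;> rw [e]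
    · group
    · rw [one_mul, mul_assoc, ← mul_assoc _ z, h.cen, ← mul_assoc, ← mul_assoc, h.sq]; group
  refine h.ne_inv (u := y * y) ?_ (c2.symm.trans c3)
  rcases h1 with e | e <;> rw [e]
  · exact x2
  · rw [mul_assoc, ← mul_assoc z, ← h.cen, mul_assoc, h.sq, mul_one, x2]

variable {G : Type*} [Group G] [Finite G] {a b : G} {J K : Subgroup G}

theorem exists_q8_cent (hK : QC b K) {d : G} (hd : d ∈ C b) (d2 : d * d = 1)
    (hc : q b d ∈ centralizer (bar b K : Set (Qt b))) :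
    ∃ k ∈ K, ∃ l ∈ K, k ∈ C d ∧ l ∈ C d ∧ k * k = b ∧ l * l = b ∧ l * k * l⁻¹ = k⁻¹ := by
  have hn : d ∈ normalizer (K : Set G) := (hK.norm_iff hd).1 (centralizer_le_normalizer _ hc)
  have h1 : ⁅K, zpowers d⁆ ≤ (pPrimeCore 2 K).map K.subtype := by
    rw [Subgroup.commutator_comm]
    refine commutator_zpowers_le (normalizer_le_normalizer_pPrimeCoreOf K hn) fun k hk => ?_
    have hkb := hK.le hk
    rw [pPrimeCoreOf_eq_inf_of_subgroupOf hK.le hK.comp.isSubnormal, commutatorElement_def]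
    refine ⟨(q_eq_one (by (repeat' first | assumption | exact C_self _ | apply mul_mem | apply inv_mem | apply pow_mem))).1 ?_, K.mul_mem (cj_mem_of_norm hn hk) (K.inv_mem hk)⟩
    simp (disch := (repeat' first | assumption | exact C_self _ | apply mul_mem | apply inv_mem | apply pow_mem)) only [q_mul, q_inv, q_pow]
    rw [← mem_cent.1 hc _ (q_mem hkb hk)]; group
  have h2 := (hK.quasi.pGen_of_le_sup inf_le_left
    (IsPQuasi.le_inf_centralizer_sup (P2.of_sq d2).isPGroup h1)).1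
  rw [centralizer_zpowers] at h2
  have h3 : b ∈ pGen 2 (K ⊓ C d) := le_pGen_of_isPGroup (P2.of_sq hK.sq).isPGroup
    (zpowers_le.2 (mem_inf.2 ⟨hK.mem, C_symm hd⟩)) (mem_zpowers b)
  obtain ⟨k, l, e1, e2, e3⟩ := (ui_of h3 hK.sq hK.ne fun t ht =>
    hK.uniq t (pGen_le _ ht).1).exists_q8 (res_of h2.commutator_self)
  exact ⟨k, (pGen_le _ k.2).1, l, (pGen_le _ l.2).1, (pGen_le _ k.2).2, (pGen_le _ l.2).2,
    congrArg Subtype.val e1, congrArg Subtype.val e2, congrArg Subtype.val e3⟩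

theorem part_two (hJ : QC a J) (hK : QC b K) (hne : J ≠ K) (ha : a ∈ normalizer (K : Set G)) :
    b ∈ normalizer (J : Set G) := by
  by_contra hn
  have a2 := hJ.sq
  have b2 := hK.sq
  have hab : a ∈ C b := mem_C.2 (cj_comm.1 ((hK.uniq _ (cj_mem_of_norm ha hK.mem) (by
    rw [show a * b * a⁻¹ * (a * b * a⁻¹) = a * (b * b) * a⁻¹ by group, b2]; simp)).resolve_left
      fun e => hK.ne (by simpa using e)))
  have hba := C_symm hab
  have cj := hJ.cu
  have ck := hK.cu
  have sq : ∀ {u v : G}, u ∈ C v → u * u = 1 → v * v = 1 → u * v * (u * v) = 1 :=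
    fun {u v} hu h h' => by
      rw [mul_assoc, ← mul_assoc v, ← mem_C.1 hu, mul_assoc, h', mul_one, h]
  have hN : ∀ κ ∈ bar b K, P2 κ → κ * q b a = q b a * κ → κ ∈ centralizer (bar b K : Set _) := by
    intro κ hκ h2 c
    obtain ⟨y, hyb, hya, y2, rfl⟩ := liftc hab a2 h2 c
    have hy := hK.mem_of_p2 hyb y2 hκ
    by_cases e : y * y = 1
    · rcases hK.uniq y hy e with rfl | rfl
      · rw [q_one]; exact one_mem _
      · exact mem_cent.2 fun x _ => q_cen x
    · obtain ⟨n, e1⟩ := hK.exists_pow hy y2 fun e' => e (by simp [e'])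
      exact absurd (e1 ▸ pow_mem (part_one hJ hK hne hy y2 e hya) n) hn
  have han := (hK.norm_iff hab).2 ha
  obtain ⟨w, hw, hw1, -⟩ := ck.exists_flip (q_p2 hab (.of_sq a2)) han (mem_zpowers _)
    (q_sq1 hab a2) fun hc => by
      obtain ⟨u, hu, -, -, u2, -⟩ := ck.exists_q8
      exact ck.not_cent hu u2 (hN u hu (ck.p2 u2) (mem_cent.1 hc u hu))
  obtain ⟨β, hβ⟩ : ∃ β, β = q a b := ⟨_, rfl⟩
  have hc : ∀ x ∈ bar a J, ∀ y ∈ bar a J, x * (β * y * β⁻¹) = β * y * β⁻¹ * x := fun x hx y hy =>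
    mem_cent.1 (hβ ▸ hJ.cent_of_not_norm hba hn hy) x hx
  have hd : ∀ x ∈ bar a J, x * (β * x * β⁻¹) ∈ _ := fun x hx =>
    cj.diag (hβ ▸ q_sq1 hba b2) (hβ ▸ fun e => hn ((hJ.norm_iff hba).1 e)) hx
  have hm : ∀ x ∈ bar a J, ∀ y ∈ bar a J, x * (β * x * β⁻¹) * (y * (β * y * β⁻¹)) =
      x * y * (β * (x * y) * β⁻¹) := fun x hx y hy => by
    rw [mul_assoc, ← mul_assoc (β * x * β⁻¹), ← hc y hy x hx]; group
  have cz : β * q a a * β⁻¹ = q a a := cj_comm.2 (q_cen β)
  have hs : ∀ x ∈ bar a J, x * x = q a a → x * (β * x * β⁻¹) * (x * (β * x * β⁻¹)) = 1 :=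
    fun x hx x2 => by rw [hm x hx x hx, x2, cz, cj.sq]
  have hA : ∀ x ∈ bar a J, ∀ d ∈ C a, d ∈ C b → d * d = 1 → q a d = x * (β * x * β⁻¹) →
      ∃ κ ∈ bar b K, ∃ r ∈ centralizer (bar b K : Set (Qt b)), κ * r = q b d ∧
        (q b a * κ * (q b a)⁻¹ = κ ∨ q b a * κ * (q b a)⁻¹ = κ * q b b) := by
    intro x hx d hda hdb d2 e
    obtain ⟨κ, hκ, r, hr, e1⟩ := ck.inner (bal a2 b2 hba hda hdb (.of_sq d2)
      (by rw [e, ← hβ]; exact hd x hx)).layer
    refine ⟨κ, hκ, r, hr, e1, ck.proj (cj_mem_of_norm han hκ) hκ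
      (cj_mem_of_norm (normalizer_le_normalizer_centralizer _ han) hr) hr ?_⟩
    rw [e1, ← cj_comm.2 (q_comm hab hdb (mem_C.1 hda).symm), ← e1]; group
  have hB : ∀ d ∈ C b, d * d = 1 → ∀ κ ∈ bar b K, ∀ r ∈ centralizer (bar b K : Set (Qt b)),
      κ * r = q b d → q b a * κ * (q b a)⁻¹ = κ → q b d ∈ centralizer (bar b K : Set (Qt b)) := by
    intro d hdb d2 κ hκ r hr e1 e2
    have h1 := q_sq1 hdb d2
    rw [← e1, CU.mul_mul hκ hr, ← mul_one 1] at h1
    refine e1 ▸ mul_mem (hN κ hκ (.of_mul_self ?_) (cj_comm.1 e2).symm) hr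
    rcases ck.proj (mul_mem hκ hκ) (one_mem _) (mul_mem hr hr) (one_mem _) h1 with e | e <;> rw [e]
    · exact .of_sq (one_mul 1)
    · rw [one_mul]; exact .of_sq ck.sq
  obtain ⟨x, hx, x2, d, hda, hdb, d2, e, hdc⟩ : ∃ x ∈ bar a J, x * x = q a a ∧ ∃ d ∈ C a,
      d ∈ C b ∧ d * d = 1 ∧ q a d = x * (β * x * β⁻¹) ∧
        q b d ∈ centralizer (bar b K : Set (Qt b)) := by
    obtain ⟨u, hu, v, hv, u2, v2, huv⟩ := cj.exists_q8
    have e0 : v * u = u * v * q a a := by
      rw [mul_inv_eq_iff_eq_mul.1 huv, cj.inv_eq u2, mul_assoc, ← q_cen, mul_assoc]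
    obtain ⟨d, hda, hdb, d2, e⟩ := liftc hba b2 (.of_sq (hs u hu u2))
      (hβ ▸ mem_C.1 (map_subtype_le _ (hd u hu)))
    have dd : d * d = 1 := one_of_q (a := a) (by (repeat' first | assumption | exact C_self _ | apply mul_mem | apply inv_mem | apply pow_mem)) (d2.mul d2 rfl) (by simp (disch := (repeat' first | assumption | exact C_self _ | apply mul_mem | apply inv_mem | apply pow_mem)) only [q_mul, q_inv, q_pow]; rw [e, hs u hu u2])
    obtain ⟨d', hda', hdb', hdd, d2', e'⟩ := liftc2 hba hda b2 dd hdb (.of_sq (hs v hv v2))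
      (hβ ▸ mem_C.1 (map_subtype_le _ (hd v hv))) (by
        rw [e, hm v hv u hu, hm u hu v hv, e0,
          show β * (u * v * q a a) * β⁻¹ = β * (u * v) * β⁻¹ * (β * q a a * β⁻¹) by group, cz,
          mul_assoc (u * v), ← mul_assoc (q a a), ← q_cen, mul_assoc _ (q a a), cj.sq, mul_one])
    have dd' : d' * d' = 1 :=
      one_of_q (a := a) (by (repeat' first | assumption | exact C_self _ | apply mul_mem | apply inv_mem | apply pow_mem)) (d2'.mul d2' rfl) (by simp (disch := (repeat' first | assumption | exact C_self _ | apply mul_mem | apply inv_mem | apply pow_mem)) only [q_mul, q_inv, q_pow]; rw [e', hs v hv v2])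
    obtain ⟨κ, hκ, r, hr, e1, e2 | e2⟩ := hA u hu d hda hdb dd e
    · exact ⟨u, hu, u2, d, hda, hdb, dd, e, hB d hdb dd κ hκ r hr e1 e2⟩
    obtain ⟨κ', hκ', r', hr', e1', e2' | e2'⟩ := hA v hv d' hda' hdb' dd' e'
    · exact ⟨v, hv, v2, d', hda', hdb', dd', e', hB d' hdb' dd' κ' hκ' r' hr' e1' e2'⟩
    have d3 := sq (C_symm hdd) dd dd'
    refine ⟨u * v, mul_mem hu hv, ?_, d * d', by (repeat' first | assumption | exact C_self _ | apply mul_mem | apply inv_mem | apply pow_mem), by (repeat' first | assumption | exact C_self _ | apply mul_mem | apply inv_mem | apply pow_mem), d3, by simp (disch := (repeat' first | assumption | exact C_self _ | apply mul_mem | apply inv_mem | apply pow_mem)) only [q_mul, q_inv, q_pow]; rw [e, e', hm u hu v hv],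
      hB _ (by (repeat' first | assumption | exact C_self _ | apply mul_mem | apply inv_mem | apply pow_mem)) d3 (κ * κ') (mul_mem hκ hκ') (r * r') (mul_mem hr hr') ?_ ?_⟩
    · rw [mul_assoc, ← mul_assoc v, e0, mul_assoc _ (q a a), ← q_cen, ← mul_assoc, ← mul_assoc,
        ← mul_assoc, u2, mul_assoc (q a a), v2, cj.sq, one_mul]
    · simp (disch := (repeat' first | assumption | exact C_self _ | apply mul_mem | apply inv_mem | apply pow_mem)) only [q_mul, q_inv, q_pow]; rw [← e1, ← e1', CU.mul_mul hκ' hr]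
    · rw [show q b a * (κ * κ') * (q b a)⁻¹ = q b a * κ * (q b a)⁻¹ * (q b a * κ' * (q b a)⁻¹) by
        group, e2, e2', mul_assoc, ← mul_assoc (q b b), ← q_cen, mul_assoc κ', ck.sq, mul_one]
  have had := C_symm hda
  have hbd := C_symm hdb
  obtain ⟨g, hga, -, g1, g2⟩ := lift2 (ξ := x) (e := b) (e' := d * a * b) (f := d) (f' := d) hba
    (by (repeat' first | assumption | exact C_self _ | apply mul_mem | apply inv_mem | apply pow_mem)) hda hda b2 (sq (by (repeat' first | assumption | exact C_self _ | apply mul_mem | apply inv_mem | apply pow_mem)) (sq hda d2 a2) b2) d2 d2 hdb (C_symm (by (repeat' first | assumption | exact C_self _ | apply mul_mem | apply inv_mem | apply pow_mem))) (by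
      simp (disch := (repeat' first | assumption | exact C_self _ | apply mul_mem | apply inv_mem | apply pow_mem)) only [q_mul, q_inv, q_pow]
      rw [e, ← hβ]
      calc _ = x * (β * x * β⁻¹)⁻¹ * β := by group
        _ = _ := by rw [cj.inv_eq (cj.cj_sq x2 β), ← mul_assoc])
    (by rw [e, cj_comm, hc x hx x hx, ← mul_assoc, hc x hx x hx])
  obtain ⟨g', hgb, -, g3, g4⟩ := lift2 (ξ := w⁻¹) (e := a) (e' := a * b) (f := d) (f' := d) hab
    (by (repeat' first | assumption | exact C_self _ | apply mul_mem | apply inv_mem | apply pow_mem)) hdb hdb a2 (sq hab a2 b2) d2 d2 hda (C_symm (by (repeat' first | assumption | exact C_self _ | apply mul_mem | apply inv_mem | apply pow_mem))) (by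
      simp (disch := (repeat' first | assumption | exact C_self _ | apply mul_mem | apply inv_mem | apply pow_mem)) only [q_mul, q_inv, q_pow]
      calc _ = w⁻¹ * (q b a * w * (q b a)⁻¹) * q b a := by group
        _ = _ := by rw [hw1, q_cen (q b a)]; group)
    (cj_comm.2 (mem_cent.1 hdc _ (inv_mem hw)))
  have f1 : g * g' * a * (g * g')⁻¹ = d * b := by
    rw [show g * g' * a * (g * g')⁻¹ = g * (g' * a * g'⁻¹) * g⁻¹ by group, g3,
      show g * (a * b) * g⁻¹ = g * a * g⁻¹ * (g * b * g⁻¹) by group, g1, cj_comm.2 (mem_C.1 hga),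
      ← mul_assoc, ← mul_assoc, ← mem_C.1 hda, mul_assoc d, a2, mul_one]
  have f2 : g * g' * (a * d) * (g * g')⁻¹ = b := by
    rw [show g * g' * (a * d) * (g * g')⁻¹ = g * g' * a * (g * g')⁻¹ * (g * (g' * d * g'⁻¹) * g⁻¹) by
      group, f1, g4, g2, mul_assoc, ← mem_C.1 hdb, ← mul_assoc, d2, one_mul]
  obtain ⟨X, hX, hXa, rfl⟩ := mem_bar hx
  have h1 : q a (X⁻¹ * (a * d)) ∈ centralizer (bar a J : Set (Qt a)) := by
    simp (disch := (repeat' first | assumption | exact C_self _ | apply mul_mem | apply inv_mem | apply pow_mem)) only [q_mul, q_inv, q_pow]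
    rw [e, ← mul_assoc, q_cen, mul_assoc, inv_mul_cancel_left]
    exact mul_mem (mem_cent.2 fun x _ => q_cen x) (hβ ▸ hJ.cent_of_not_norm hba hn hx)
  have h2 := hJ.cent_cj (by (repeat' first | assumption | exact C_self _ | apply mul_mem | apply inv_mem | apply pow_mem)) (g * g') h1
  have h3 := q_cj (g * g') (x := X * X) (by (repeat' first | assumption | exact C_self _ | apply mul_mem | apply inv_mem | apply pow_mem)) (C_self a) (by simp (disch := (repeat' first | assumption | exact C_self _ | apply mul_mem | apply inv_mem | apply pow_mem)) only [q_mul, q_inv, q_pow]; exact x2)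
  have hJ' := hJ.conj (g * g')
  have h4 := C_cj (g * g') hXa
  have h5 := C_cj (a := a) (g * g') (x := X⁻¹ * (a * d)) (by (repeat' first | assumption | exact C_self _ | apply mul_mem | apply inv_mem | apply pow_mem))
  have h6 := cj_mem hX (g * g')
  rw [show g * g' * (X * X) * (g * g')⁻¹ = g * g' * X * (g * g')⁻¹ * (g * g' * X * (g * g')⁻¹) by
    group, q_mul h4 h4] at h3
  have h7 : g * g' * X * (g * g')⁻¹ * (g * g' * (X⁻¹ * (a * d)) * (g * g')⁻¹) = b := by
    rw [← f2]; group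
  generalize g * g' * X * (g * g')⁻¹ = Y at h3 h4 h6 h7
  generalize g * g' * (X⁻¹ * (a * d)) * (g * g')⁻¹ = R at h2 h5 h7
  obtain ⟨k, hk, l, hl, hkd, hld, k2, l2, hkl⟩ := exists_q8_cent hK hdb d2 hdc
  have key : ∀ k ∈ K, k ∈ C d → k * k = b → InL (g * g' * a * (g * g')⁻¹) k := by
    intro k hk hkd k2
    have hkb := hK.le hk
    rw [f1]
    refine bal b2 (sq hdb d2 b2) (by (repeat' first | assumption | exact C_self _ | apply mul_mem | apply inv_mem | apply pow_mem)) hkb (C_mul hkd hkb) (.of_mul_self (k2 ▸ .of_sq b2))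
      (ck.le_pLayer ?_ (q_mem hkb hk))
    simp (disch := (repeat' first | assumption | exact C_self _ | apply mul_mem | apply inv_mem | apply pow_mem)) only [q_mul, q_inv, q_pow]
    exact mul_mem hdc (mem_cent.2 fun x _ => q_cen x)
  have m1 : k ∈ C _ := map_subtype_le _ (key k hk hkd k2)
  have m2 : l ∈ C _ := map_subtype_le _ (key l hl hld l2)
  refine hJ'.cu.no_q8 (q_mem h4 h6) h3 h2 (key k hk hkd k2).layer (key l hl hld l2).layer
    (by rw [q_sq m1 k2, ← h7, q_mul h4 h5]) (by rw [q_sq m2 l2, ← h7, q_mul h4 h5]) ?_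
  rw [← q_inv m1, ← hkl]; simp (disch := (repeat' first | assumption | exact C_self _ | apply mul_mem | apply inv_mem | apply pow_mem)) only [q_mul, q_inv, q_pow]

end Cfsg.Lib.JK
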